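import Cfsg.Agent.Lib.H5.InvPairs

/-!
# The lattice spanned by the induced virtual characters (centralizer `GL(2, 3)`)
-/

set_option autoImplicit false
set_option linter.unusedSectionVars false

namespace Cfsg.Agent.H4.BW

open Subgroup Cfsg.Agent.H6 Cfsg.Agent.FT Cfsg.Agent.GW5
open scoped ComplexConjugate Classical

variable {G : Type*} [Group G] [Finite G] {L : Subgroup G}

theorem bessel_list (l : List ((G → ℂ) × ℤ)) (hl : ∀ p ∈ l, p.1 ∈ DIrr L)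
    (hp : l.Pairwise fun a b => ⟪a.1, b.1⟫[L] = 0) {φ : G → ℂ} {n : ℤ} (hn : ⟪φ, φ⟫[L] = n)
    (hc : ∀ p ∈ l, ⟪φ, p.1⟫[L] = p.2) : (l.map fun p => p.2 ^ 2).sum ≤ n := by
  induction l generalizing φ n with
  | nil =>
    have h1 := cfnorm_nonneg L φ
    rw [cfnorm_eq_of_cfdot (r := n) (by simpa using hn)] at h1
    simpa using h1
  | cons p l ih =>
    rw [List.pairwise_cons] at hp
    have h1 := hc p List.mem_cons_self
    have h2 := cfdot_comm_of_int h1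
    have h3 := DIrr_cfdot_self (hl p List.mem_cons_self)
    have := ih (fun q hq => hl q (List.mem_cons_of_mem _ hq)) hp.2 (φ := φ - p.2 • p.1)
      (n := n - p.2 ^ 2) (by
        simp only [cfdot_sub_left, cfdot_sub_right, cfdot_zsmul_left, cfdot_zsmul_right, hn, h1,
          h2, h3]
        push_cast
        ring) (fun q hq => by
        simp only [cfdot_sub_left, cfdot_zsmul_left, hc q (List.mem_cons_of_mem _ hq), hp.1 q hq]
        ring)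
    simp only [List.map_cons, List.sum_cons]
    omega

theorem orth_of_add {a b f : G → ℂ} (ha : a ∈ DIrr L) (hb : b ∈ DIrr L) (hf : f ∈ DIrr L)
    (hab : ⟪a, b⟫[L] = 0) (h : ⟪a + b, f⟫[L] = 0) : ⟪a, f⟫[L] = 0 ∧ ⟪b, f⟫[L] = 0 := by
  rw [cfdot_add_left] at h
  have hba := cfdot_symm_zero hab
  suffices h1 : ⟪a, f⟫[L] = 0 from ⟨h1, by simpa [h1] using h⟩
  by_contra h1
  rcases DIrr_eq_of_cfdot_ne_zero ha hf h1 with rfl | rfl
  · exact h1 (by simpa [hba] using h)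
  · rw [cfdot_neg_right, neg_eq_zero] at hba
    exact h1 (by simpa [hba] using h)

theorem step1 {θ1 θ6 : G → ℂ} (z1 : θ1 ∈ ZIrr L) (z6 : θ6 ∈ ZIrr L) (h11 : ⟪θ1, θ1⟫[L] = 2)
    (h66 : ⟪θ6, θ6⟫[L] = 2) (h61 : ⟪θ6, θ1⟫[L] = -1) :
    ∃ A ∈ DIrr L, ∃ B ∈ DIrr L, ∃ C ∈ DIrr L, ⟪A, B⟫[L] = 0 ∧ ⟪A, C⟫[L] = 0 ∧ ⟪B, C⟫[L] = 0 ∧
      θ1 = A + B ∧ θ6 = C - A := by
  have key : ∀ A ∈ DIrr L, ∀ B ∈ DIrr L, ⟪A, B⟫[L] = 0 → θ1 = A + B → ⟪θ6, A⟫[L] = -1 →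
      ⟪θ6, B⟫[L] = 0 → ∃ A ∈ DIrr L, ∃ B ∈ DIrr L, ∃ C ∈ DIrr L, ⟪A, B⟫[L] = 0 ∧ ⟪A, C⟫[L] = 0 ∧
      ⟪B, C⟫[L] = 0 ∧ θ1 = A + B ∧ θ6 = C - A := by
    intro A hA B hB hAB e h1 h2
    have h1' : ⟪A, θ6⟫[L] = -1 := by rw [ZIrr_cfdot_comm (DIrr_mem_ZIrr hA) z6, h1]
    have h3 := DIrr_cfdot_self hA
    refine ⟨A, hA, B, hB, θ6 + A, DIrr_of_norm_one (add_mem z6 (DIrr_mem_ZIrr hA)) ?_, hAB, ?_, ?_,
      e, by abel⟩
    · simp only [cfdot_add_left, cfdot_add_right, h66, h1, h1', h3]; ring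
    · simp [h1', h3]
    · simp [cfdot_symm_zero h2, cfdot_symm_zero hAB]
  obtain ⟨a, ha, b, hb, hab, e⟩ := exists_DIrr_add z1 h11
  obtain ⟨x, hx⟩ := ZIrr_cfdot z6 (DIrr_mem_ZIrr ha)
  obtain ⟨y, hy⟩ := ZIrr_cfdot z6 (DIrr_mem_ZIrr hb)
  have h1 := sq_add_sq_le ha hb hab hx hy (n := 2) (by simpa using h66)
  have h2 : x + y = -1 := by
    rw [e, cfdot_add_right, hx, hy] at h61
    exact_mod_cast h61
  have h3 : x = -1 ∨ x = 0 := by
    obtain rfl : y = -1 - x := by omega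
    have : -2 < x := by nlinarith
    have : x < 1 := by nlinarith
    omega
  rcases h3 with rfl | rfl
  · obtain rfl : y = 0 := by omega
    exact key a ha b hb hab e (by simpa using hx) (by simpa using hy)
  · obtain rfl : y = -1 := by omega
    exact key b hb a ha (cfdot_symm_zero hab) (by rw [e, add_comm]) (by simpa using hy)
      (by simpa using hx)

theorem gram {θ0 θ1 θ6 θ2 θ4 : G → ℂ} (z0 : θ0 ∈ ZIrr L) (z1 : θ1 ∈ ZIrr L) (z6 : θ6 ∈ ZIrr L)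
    (z2 : θ2 ∈ ZIrr L) (z4 : θ4 ∈ ZIrr L) (v1 : θ1 1 = 0) (v6 : θ6 1 = 0) (v2 : θ2 1 = 0)
    (h11 : ⟪θ1, θ1⟫[L] = 2) (h66 : ⟪θ6, θ6⟫[L] = 2) (h61 : ⟪θ6, θ1⟫[L] = -1)
    (h22 : ⟪θ2, θ2⟫[L] = 3) (h21 : ⟪θ2, θ1⟫[L] = 1) (h26 : ⟪θ2, θ6⟫[L] = -1)
    (h44 : ⟪θ4, θ4⟫[L] = 3) (h41 : ⟪θ4, θ1⟫[L] = 0) (h46 : ⟪θ4, θ6⟫[L] = 0)
    (h42 : ⟪θ4, θ2⟫[L] = 1) (h1 : ⟪θ1, cf1 L⟫[L] = 0) (h6 : ⟪θ6, cf1 L⟫[L] = 0)
    (h2 : ⟪θ2, cf1 L⟫[L] = 1) (h4 : ⟪θ4, cf1 L⟫[L] = 1) (h0 : ⟪θ0, cf1 L⟫[L] = 1)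
    (h00 : ⟪θ0, θ0⟫[L] = 48) (h01 : ⟪θ0, θ1⟫[L] = 0) (h06 : ⟪θ0, θ6⟫[L] = 4)
    (h02 : ⟪θ0, θ2⟫[L] = -4) (h04 : ⟪θ0, θ4⟫[L] = 8) :
    ∃ A ∈ DIrr L, ∃ D ∈ DIrr L, ∃ F ∈ DIrr L, ∃ E ∈ DIrr L, θ2 = cf1 L + A + D ∧
      θ4 = cf1 L + F + E ∧ ⟪θ0, A⟫[L] = -2 ∧ ⟪θ0, D⟫[L] = -3 ∧ ⟪θ0, F⟫[L] = 3 ∧
      ⟪θ0, E⟫[L] = 4 := by
  obtain ⟨A, hA, B, hB, C, hC, hAB, hAC, hBC, rfl, rfl⟩ := step1 z1 z6 h11 h66 h61
  have ho : cf1 L ∈ DIrr L := Irr_subset_DIrr (cf1_mem_Irr L)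
  have zo := DIrr_mem_ZIrr ho
  have zA := DIrr_mem_ZIrr hA
  have zB := DIrr_mem_ZIrr hB
  have zC := DIrr_mem_ZIrr hC
  obtain ⟨hAo, hBo⟩ := orth_of_add hA hB ho hAB h1
  have hCo : ⟪C, cf1 L⟫[L] = 0 := by simpa [hAo] using h6
  have hoA := cfdot_symm_zero hAo
  have hoB := cfdot_symm_zero hBo
  have hoC := cfdot_symm_zero hCo
  have hBA := cfdot_symm_zero hAB
  have hCA := cfdot_symm_zero hAC
  have hCB := cfdot_symm_zero hBC
  have hoo := DIrr_cfdot_self ho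
  have hAA := DIrr_cfdot_self hA
  have hBB := DIrr_cfdot_self hB
  have hCC := DIrr_cfdot_self hC
  have ho2 : ⟪cf1 L, θ2⟫[L] = 1 := by rw [ZIrr_cfdot_comm zo z2, h2]
  have ho4 : ⟪cf1 L, θ4⟫[L] = 1 := by rw [ZIrr_cfdot_comm zo z4, h4]
  -- the second character
  obtain ⟨p, hp⟩ := ZIrr_cfdot z2 zA
  have hq : ⟪θ2, B⟫[L] = ((1 - p : ℤ) : ℂ) := by
    rw [cfdot_add_right, hp] at h21
    push_cast
    linear_combination h21
  have hr : ⟪θ2, C⟫[L] = ((p - 1 : ℤ) : ℂ) := by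
    rw [cfdot_sub_right, hp] at h26
    push_cast
    linear_combination h26
  have b2 := bessel_list (L := L) [(cf1 L, 1), (A, p), (B, 1 - p), (C, p - 1)] (by simp [*])
    (by simp [*]) (φ := θ2) (n := 3) (by simpa using h22) (by simp [hp, hq, hr, h2])
  simp only [List.map_cons, List.map_nil, List.sum_cons, List.sum_nil] at b2
  have hp1 : p = 1 := by
    have : -1 < p := by nlinarith
    have : p < 2 := by nlinarith
    rcases (by omega : p = 0 ∨ p = 1) with rfl | h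
    · exfalso
      have hq' := cfdot_comm_of_int hq
      have hr' := cfdot_comm_of_int hr
      have e := eq_zero_of_cfdot_self (φ := θ2 - cf1 L - B + C)
        (ZIrr_supp (add_mem (sub_mem (sub_mem z2 zo) zB) zC)) (by
          simp only [cfdot_add_left, cfdot_add_right, cfdot_sub_left, cfdot_sub_right, *]
          push_cast
          ring)
      have e1 := congrFun e 1
      obtain ⟨x, hx⟩ := ZIrr_apply_one zA
      simp only [Pi.add_apply, Pi.sub_apply, cf1_one, Pi.zero_apply, hx] at e1 v1 v6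
      have : (2 * x : ℂ) = 1 := by linear_combination e1 - v2 + v1 - v6
      have : 2 * x = 1 := by exact_mod_cast this
      omega
    · exact h
  subst hp1
  simp only [sub_self, Int.cast_zero, Int.cast_one] at hp hq hr
  have hp' : ⟪A, θ2⟫[L] = 1 := by rw [ZIrr_cfdot_comm zA z2, hp]
  obtain ⟨D, e2⟩ : ∃ D, θ2 = cf1 L + A + D := ⟨θ2 - cf1 L - A, by abel⟩
  have eD : D = θ2 - cf1 L - A := by rw [e2]; abel
  have zD : D ∈ ZIrr L := eD ▸ sub_mem (sub_mem z2 zo) zA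
  have hD : D ∈ DIrr L := DIrr_of_norm_one zD (by
    simp only [eD, cfdot_sub_left, cfdot_sub_right, h22, h2, ho2, hp, hp', hoo, hAA, hAo, hoA]
    ring)
  have hDo : ⟪D, cf1 L⟫[L] = 0 := by simp [eD, h2, hoo, hAo]
  have hDA : ⟪D, A⟫[L] = 0 := by simp [eD, hp, hoA, hAA]
  have hDB : ⟪D, B⟫[L] = 0 := by simp [eD, hq, hoB, hAB]
  have hDC : ⟪D, C⟫[L] = 0 := by simp [eD, hr, hoC, hAC]
  have hoD := cfdot_symm_zero hDo
  have hAD := cfdot_symm_zero hDA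
  have hBD := cfdot_symm_zero hDB
  have hCD := cfdot_symm_zero hDC
  -- the fourth character
  obtain ⟨s, hs⟩ := ZIrr_cfdot z4 zA
  have hsB : ⟪θ4, B⟫[L] = ((-s : ℤ) : ℂ) := by
    rw [cfdot_add_right, hs] at h41
    push_cast
    linear_combination h41
  have hsC : ⟪θ4, C⟫[L] = s := by
    rw [cfdot_sub_right, hs] at h46
    linear_combination h46
  have b4 := bessel_list (L := L) [(cf1 L, 1), (A, s), (B, -s), (C, s)]
    (by simp [ho, hA, hB, hC]) (by simp [hoA, hoB, hoC, hAB, hAC, hBC]) (φ := θ4) (n := 3)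
    (by simpa using h44) (by simp [hs, hsB, hsC, h4])
  simp only [List.map_cons, List.map_nil, List.sum_cons, List.sum_nil] at b4
  obtain rfl : s = 0 := by
    have : -1 < s := by nlinarith
    have : s < 1 := by nlinarith
    omega
  simp only [neg_zero, Int.cast_zero] at hs hsB hsC
  have hsD : ⟪θ4, D⟫[L] = 0 := by simp [eD, h42, h4, hs]
  obtain ⟨F, hF, E, hE, hFE, e4⟩ := exists_DIrr_add (sub_mem z4 zo) (by
    simp only [cfdot_sub_left, cfdot_sub_right, h44, h4, ho4, hoo]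
    ring)
  obtain ⟨hFo, hEo⟩ := orth_of_add hF hE ho hFE (by simp [← e4, h4, hoo])
  obtain ⟨hFA, hEA⟩ := orth_of_add hF hE hA hFE (by simp [← e4, hs, hoA])
  obtain ⟨hFB, hEB⟩ := orth_of_add hF hE hB hFE (by simp [← e4, hsB, hoB])
  obtain ⟨hFC, hEC⟩ := orth_of_add hF hE hC hFE (by simp [← e4, hsC, hoC])
  obtain ⟨hFD, hED⟩ := orth_of_add hF hE hD hFE (by simp [← e4, hsD, hoD])
  have e4' : θ4 = cf1 L + F + E := by rw [add_assoc, ← e4]; abel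
  -- the values at the involution
  obtain ⟨a, ha⟩ := ZIrr_cfdot z0 zA
  obtain ⟨f, hf⟩ := ZIrr_cfdot z0 (DIrr_mem_ZIrr hF)
  have haB : ⟪θ0, B⟫[L] = ((-a : ℤ) : ℂ) := by
    rw [cfdot_add_right, ha] at h01
    push_cast
    linear_combination h01
  have haC : ⟪θ0, C⟫[L] = ((a + 4 : ℤ) : ℂ) := by
    rw [cfdot_sub_right, ha] at h06
    push_cast
    linear_combination h06
  have haD : ⟪θ0, D⟫[L] = ((-5 - a : ℤ) : ℂ) := by
    rw [eD, cfdot_sub_right, cfdot_sub_right, h02, h0, ha]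
    push_cast
    ring
  have hfE : ⟪θ0, E⟫[L] = ((7 - f : ℤ) : ℂ) := by
    rw [e4', cfdot_add_right, cfdot_add_right, h0, hf] at h04
    push_cast
    linear_combination h04
  have b0 := bessel_list (L := L)
    [(F, f), (E, 7 - f), (D, -5 - a), (cf1 L, 1), (A, a), (B, -a), (C, a + 4)]
    (by simp [ho, hA, hB, hC, hD, hE, hF])
    (by simp [hoA, hoB, hoC, hAB, hAC, hBC, hFE, hFo, hEo, hFA, hEA, hFB, hEB, hFC, hEC, hFD, hED,
      hDo, hDA, hDB, hDC]) (φ := θ0) (n := 48)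
    (by simpa using h00) (by simp [ha, hf, haB, haC, haD, hfE, h0])
  simp only [List.map_cons, List.map_nil, List.sum_cons, List.sum_nil] at b0
  have hf25 : 25 ≤ f ^ 2 + (7 - f) ^ 2 := by
    rcases (by omega : f ≤ 3 ∨ 4 ≤ f) with h | h <;> nlinarith
  obtain rfl : a = -2 := by
    have : -3 < a := by nlinarith
    have : a < -1 := by nlinarith
    omega
  have h34 : f = 3 ∨ f = 4 := by
    have : 2 < f := by nlinarith
    have : f < 5 := by nlinarith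
    omega
  rcases h34 with rfl | rfl
  · exact ⟨A, hA, D, hD, F, hF, E, hE, e2, e4', by simpa using ha, by rw [haD]; norm_num,
      by simpa using hf, by rw [hfE]; norm_num⟩
  · exact ⟨A, hA, D, hD, E, hE, F, hF, e2, by rw [e4']; abel, by simpa using ha,
      by rw [haD]; norm_num, by rw [hfE]; norm_num, by simpa using hf⟩

/-- the arithmetic -/
theorem arith {k : ℕ} (hk : ¬ 2 ∣ k) {x z : ℤ} (h1 : k * (x - 2) ^ 2 = 96 * x * (x + 1))
    (h2 : k * (z - 3) ^ 2 = 192 * z * (z + 1)) : k = 117 ∨ k = 165 := by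
  obtain ⟨w, rfl⟩ : ∃ w, x = w + 2 := ⟨x - 2, by ring⟩
  have hd : w ∣ 576 := ⟨w * (k - 96) - 480, by linear_combination -h1⟩
  have hd' : w.natAbs ∈ Nat.divisors 576 :=
    Nat.mem_divisors.2 ⟨Int.natAbs_dvd_natAbs.2 hd, by norm_num⟩
  have e : Nat.divisors 576 =
      {1, 2, 3, 4, 6, 8, 9, 12, 16, 18, 24, 32, 36, 48, 64, 72, 96, 144, 192, 288, 576} := by
    decide +kernel
  simp only [e, Finset.mem_insert, Finset.mem_singleton, Int.natAbs_eq_iff] at hd'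
  have h4 : k = 117 ∨ k = 165 ∨ k = 45 ∨ k = 77 := by
    rcases hd' with h | h | h | h | h | h | h | h | h | h | h | h | h | h | h | h | h | h | h | h |
      h <;> rcases h with rfl | rfl <;> norm_num at h1 <;> omega
  rcases h4 with h | h | rfl | rfl
  · exact Or.inl h
  · exact Or.inr h
  · have : (7 * z - 5) * (7 * z + 27) = 0 := by
      push_cast at h2
      linarith
    rcases mul_eq_zero.1 this with h | h <;> omega
  · have : (5 * z + 33) * (23 * z - 21) = 0 := by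
      push_cast at h2
      linarith
    rcases mul_eq_zero.1 this with h | h <;> omega

end Cfsg.Agent.H4.BW
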