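import Cfsg.Agent.Lib.H4.BW1
import Cfsg.Agent.Lib.H4.BW2
import Cfsg.Agent.Lib.H6.Transfer

/-!
# Simple groups with an involution whose centralizer is `GL(2, 3)`
-/

set_option autoImplicit false
set_option linter.unusedSectionVars false

namespace Cfsg.Agent.H4.BW

open Subgroup Cfsg.Agent.H6 Cfsg.Agent.FT Cfsg.Agent.GW5
open scoped ComplexConjugate Classical

/-- the embedding of `ℤ[√-2]` -/
noncomputable def val : ℤ√(-2) →+* ℂ :=
  Zsqrtd.lift ⟨Complex.I * (Real.sqrt 2 : ℝ), by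
    have : ((Real.sqrt 2 : ℝ) : ℂ) * (Real.sqrt 2 : ℝ) = 2 := by
      rw [← Complex.ofReal_mul, Real.mul_self_sqrt (by norm_num)]; norm_num
    push_cast
    linear_combination Complex.I ^ 2 * this + 2 * Complex.I_sq⟩

theorem val_star (z : ℤ√(-2)) : val (star z) = conj (val z) := by
  simp [val, Zsqrtd.lift_apply_apply]

theorem pow_eq_of_invol {G : Type*} [Group G] {a : G} {k l : ℕ} (hk : orderOf (a ^ k) = 2)
    (hl : orderOf (a ^ l) = 2) : a ^ k = a ^ l := by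
  have key : ∀ k : ℕ, orderOf (a ^ k) = 2 → ∃ u, 2 * k = orderOf a * (2 * u + 1) := by
    intro k hk
    have h1 : a ^ (2 * k) = 1 := by rw [mul_comm, pow_mul, ← hk, pow_orderOf_eq_one]
    obtain ⟨u, hu⟩ := orderOf_dvd_of_pow_eq_one h1
    rcases Nat.even_or_odd' u with ⟨v, rfl | rfl⟩
    · have : k = orderOf a * v := by linarith
      rw [this, pow_mul, pow_orderOf_eq_one, one_pow, orderOf_one] at hk
      omega
    · exact ⟨v, hu⟩
  obtain ⟨u, hu⟩ := key k hk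
  obtain ⟨v, hv⟩ := key l hl
  have : k + orderOf a * v = l + orderOf a * u := by linarith
  have h2 : a ^ (k + orderOf a * v) = a ^ (l + orderOf a * u) := by rw [this]
  simpa [pow_add, pow_mul] using h2

variable {G : Type*} [Group G] [Finite G]

/-- `ε` identifies the centralizer of `t` with the finite model. -/
structure Model (t : G) (ε : G → M4) : Prop where
  ot : orderOf t = 2
  mul : ∀ x ∈ 𝒞[t], ∀ y ∈ 𝒞[t], ε (x * y) = mul (ε x) (ε y)
  inj : ∀ x ∈ 𝒞[t], ∀ y ∈ 𝒞[t], ε x = ε y → x = y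
  det : ∀ x ∈ 𝒞[t], det (ε x) ≠ 0
  surj : ∀ m, BW.det m ≠ 0 → ∃ x ∈ 𝒞[t], ε x = m

theorem exists_model {t : G} (ht : orderOf t = 2)
    (e : centralizer ({t} : Set G) ≃* Matrix.GeneralLinearGroup (Fin 2) (ZMod 3)) :
    ∃ ε, Model t ε := by
  haveI : Fact (Nat.Prime 3) := ⟨by norm_num⟩
  refine ⟨fun x => if h : x ∈ 𝒞[t] then
    ((e ⟨x, h⟩).1 0 0, (e ⟨x, h⟩).1 0 1, (e ⟨x, h⟩).1 1 0, (e ⟨x, h⟩).1 1 1) else one,
    ht, fun x hx y hy => ?_, fun x hx y hy h => ?_, fun x hx => ?_, fun m hm => ?_⟩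
  · have : e ⟨x * y, mul_mem hx hy⟩ = e ⟨x, hx⟩ * e ⟨y, hy⟩ := map_mul e ⟨x, hx⟩ ⟨y, hy⟩
    simp only [dif_pos hx, dif_pos hy, dif_pos (mul_mem hx hy), this, BW.mul, Units.val_mul,
      Matrix.mul_apply, Fin.sum_univ_two]
  · simp only [dif_pos hx, dif_pos hy, Prod.mk.injEq] at h
    have : e ⟨x, hx⟩ = e ⟨y, hy⟩ := by
      ext i j
      fin_cases i <;> fin_cases j
      exacts [h.1, h.2.1, h.2.2.1, h.2.2.2]
    simpa using e.injective this
  · simp only [dif_pos hx, BW.det]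
    rw [← Matrix.det_fin_two]
    exact (Matrix.GeneralLinearGroup.det (e ⟨x, hx⟩)).ne_zero
  · let g : Matrix.GeneralLinearGroup (Fin 2) (ZMod 3) :=
      Matrix.GeneralLinearGroup.mkOfDetNeZero !![m.1, m.2.1; m.2.2.1, m.2.2.2] (by
        rw [Matrix.det_fin_two_of]; exact hm)
    refine ⟨e.symm g, (e.symm g).2, ?_⟩
    simp [dif_pos (e.symm g).2, g]

/-- the function on `C(t)` given by a function on the model -/
noncomputable def lift (t : G) (ε : G → M4) (f : M4 → ℤ√(-2)) : G → ℂ :=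
  Res 𝒞[t] fun x => val (f (ε x))

/-- the elements with a power equal to `t` -/
def DD (t : G) : Set G := {y | ∃ k : ℕ, y ^ k = t}

section
variable {t : G} {ε : G → M4} {f g : M4 → ℤ√(-2)}

theorem lift_apply {x : G} (hx : x ∈ 𝒞[t]) : lift t ε f x = val (f (ε x)) := Res_of_mem hx

theorem lift_supp : lift t ε f ∈ supp (𝒞[t] : Set G) := Res_mem_supp _ _

theorem lift_add : lift t ε (f + g) = lift t ε f + lift t ε g := by
  simp only [lift, ← map_add]; congr 1; ext x; simp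

theorem lift_sub : lift t ε (f - g) = lift t ε f - lift t ε g := by
  simp only [lift, ← map_sub]; congr 1; ext x; simp

theorem lift_mul : lift t ε (f * g) = lift t ε f * lift t ε g := by
  simp only [lift, ← Res_mul]; congr 1; ext x; simp

theorem lift_star : lift t ε (star f) = star (lift t ε f) := by
  simp only [lift, ← Res_star]; congr 1; ext x; simp [val_star]

theorem lift_one : lift t ε 1 = cf1 𝒞[t] := by
  simp only [lift, cf1_eq_Res]; congr 1; ext x; simp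

theorem t_mem : t ∈ 𝒞[t] := mem_centralizer_singleton_iff.2 rfl

theorem DD_subset : DD t ⊆ 𝒞[t] := by
  rintro y ⟨k, rfl⟩
  exact mem_centralizer_singleton_iff.2 (pow_mul_comm' y k).symm

theorem normedTI (ht : orderOf t = 2) : NormedTI (DD t) ⊤ 𝒞[t] := by
  refine ⟨⟨t, 1, pow_one t⟩, le_top, ?_⟩
  rintro a ⟨k, hk⟩ g -
  rw [mem_centralizer_singleton_iff]
  constructor
  · rintro ⟨l, hl⟩
    rw [conj_pow] at hl
    have h1 : a ^ k = a ^ l :=
      pow_eq_of_invol (hk ▸ ht) (by rw [← GW5.orderOf_conj' g, hl, ht])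
    rw [← h1, hk] at hl
    exact mul_inv_eq_iff_eq_mul.1 hl
  · intro h
    exact ⟨k, by rw [conj_pow, hk, h, mul_inv_cancel_right]⟩

end

namespace Model

variable {t : G} {ε : G → M4} (h : Model t ε) {f g : M4 → ℤ√(-2)}
include h

theorem map_one : ε 1 = one :=
  eq_one_of_idem _ (h.det 1 (one_mem _)) (by rw [← h.mul 1 (one_mem _) 1 (one_mem _), one_mul])

theorem eq_one_iff {x : G} (hx : x ∈ 𝒞[t]) : ε x = one ↔ x = 1 :=
  ⟨fun e => h.inj x hx 1 (one_mem _) (e.trans h.map_one.symm), fun e => e ▸ h.map_one⟩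

theorem invol_iff {x : G} (hx : x ∈ 𝒞[t]) :
    orderOf x = 2 ↔ BW.mul (ε x) (ε x) = one ∧ ε x ≠ one := by
  rw [GW5.orderOf_eq_two_iff, ← h.mul x hx x hx, h.eq_one_iff (mul_mem hx hx), Ne, Ne, h.eq_one_iff hx]

theorem map_t : ε t = neg := by
  obtain ⟨y, hy, e⟩ := h.surj y8 y8_facts.1
  have := (h.invol_iff t_mem).1 h.ot
  refine eq_neg_of_comm _ this.1 this.2 ?_
  rw [← e, ← h.mul t t_mem y hy, ← h.mul y hy t t_mem, mem_centralizer_singleton_iff.1 hy]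

theorem eq_t_iff {x : G} (hx : x ∈ 𝒞[t]) : ε x = neg ↔ x = t :=
  ⟨fun e => h.inj x hx t t_mem (e.trans h.map_t.symm), fun e => e ▸ h.map_t⟩

theorem sum_eq {M : Type*} [AddCommMonoid M] (F : M4 → M) :
    ∑ x ∈ fs (𝒞[t] : Set G), F (ε x) = ∑ m ∈ GL3, F m :=
  Finset.sum_bij (fun x _ => ε x) (fun x hx => mem_GL3.2 (h.det x (mem_fs.1 hx)))
    (fun x hx y hy => h.inj x (mem_fs.1 hx) y (mem_fs.1 hy))
    (fun m hm => by
      obtain ⟨x, hx, e⟩ := h.surj m (mem_GL3.1 hm)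
      exact ⟨x, mem_fs.2 hx, e⟩) fun _ _ => rfl

theorem card_H : Nat.card 𝒞[t] = 48 := by
  have := h.sum_eq fun _ => 1
  simpa [card_fs_subgroup, card_GL3] using this

theorem cfdot_lift : ⟪lift t ε f, lift t ε g⟫[𝒞[t]] = val (dot f g) / 48 := by
  rw [cfdot, h.card_H, dot, map_sum, ← h.sum_eq, Finset.sum_congr rfl
    (g := fun x => val (f (ε x) * star (g (ε x)))) fun x hx => by
      rw [lift_apply (mem_fs.1 hx), lift_apply (mem_fs.1 hx), map_mul, val_star]]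
  push_cast
  ring

theorem zX : lift t ε X ∈ ZIrr 𝒞[t] := by
  let ρ : 𝒞[t] →* Matrix (Fin 2) (Fin 2) ℂ :=
    { toFun := fun x => !![val (r (ε x) 0), val (r (ε x) 1); val (r (ε x) 2), val (r (ε x) 3)]
      map_one' := by
        simp only [OneMemClass.coe_one, h.map_one, r_one, _root_.map_one, map_zero]
        exact Matrix.one_fin_two.symm
      map_mul' := fun x y => by
        obtain ⟨h0, h1, h2, h3⟩ := r_mul _ _ (h.det x x.2) (h.det y y.2)
        simp only [coe_mul, h.mul x x.2 y y.2, h0, h1, h2, h3, map_add, map_mul,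
          Matrix.mul_fin_two] }
  refine IsChar.mem_ZIrr ⟨lift_supp, ?_⟩
  convert H3.isCharacter_trace ρ using 2 with x
  rw [lift_apply x.2]
  simp [ρ, X, Matrix.trace_fin_two]

theorem lin_d : IsLin 𝒞[t] (lift t ε d) :=
  isLin_of_mul lift_supp (by rw [lift_apply (one_mem _), h.map_one, d_one, _root_.map_one])
    fun x hx y hy => by
      rw [lift_apply hx, lift_apply hy, lift_apply (mul_mem hx hy), h.mul x hx y hy,
        d_mul _ _ (h.det x hx) (h.det y hy), map_mul]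

theorem zp : lift t ε p0 ∈ ZIrr 𝒞[t] ∧ lift t ε p1 ∈ ZIrr 𝒞[t] ∧ lift t ε p6 ∈ ZIrr 𝒞[t] ∧
    lift t ε p2 ∈ ZIrr 𝒞[t] ∧ lift t ε p4 ∈ ZIrr 𝒞[t] := by
  have hX := h.zX
  have hY : lift t ε (star X) ∈ ZIrr 𝒞[t] := lift_star (G := G) ▸ ZIrr_star hX
  have hd := h.lin_d.1.mem_ZIrr
  have h1 : lift t ε 1 ∈ ZIrr 𝒞[t] := lift_one (G := G) ▸ cf1_mem_ZIrr _
  have A : ∀ {f g}, lift t ε f ∈ ZIrr 𝒞[t] → lift t ε g ∈ ZIrr 𝒞[t] →
      lift t ε (f + g) ∈ ZIrr 𝒞[t] := fun a b => lift_add (G := G) ▸ add_mem a b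
  have S : ∀ {f g}, lift t ε f ∈ ZIrr 𝒞[t] → lift t ε g ∈ ZIrr 𝒞[t] →
      lift t ε (f - g) ∈ ZIrr 𝒞[t] := fun a b => lift_sub (G := G) ▸ sub_mem a b
  have M : ∀ {f g}, lift t ε f ∈ ZIrr 𝒞[t] → lift t ε g ∈ ZIrr 𝒞[t] →
      lift t ε (f * g) ∈ ZIrr 𝒞[t] := fun a b => lift_mul (G := G) ▸ ZIrr_mul a b
  have h5 : lift t ε c5 ∈ ZIrr 𝒞[t] := S (M hX hY) h1
  have h4 : lift t ε c4 ∈ ZIrr 𝒞[t] := S (M hX hX) hd
  have h8 : lift t ε c8 ∈ ZIrr 𝒞[t] := S (M h4 hX) hY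
  have h3 : lift t ε c3 ∈ ZIrr 𝒞[t] := S (S (S (M h4 h4) h1) h4) h5
  exact ⟨S (S (S (A (A (A (A h1 hd) (A h3 h3)) (A (A h4 h4) h4)) (A (A h5 h5) h5)) (A hX hX))
    (A hY hY)) (A (A (A h8 h8) h8) h8), S hX hY, S h3 hX, A (S h1 h4) hX, S (A h1 h5) h8⟩

theorem supp_of (hf : ∀ m, BW.det m ≠ 0 → ¬ Dm m → f m = 0) : lift t ε f ∈ supp (DD t) := by
  intro x hx
  by_cases hH : x ∈ 𝒞[t]
  · rw [lift_apply hH, hf _ (h.det x hH), map_zero]
    have h2 := mul_mem hH hH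
    have h3 := mul_mem hH h2
    have h4 := mul_mem hH h3
    rw [Dm, ← h.mul x hH x hH, ← h.mul x hH _ h2, ← h.mul x hH _ h3, h.eq_t_iff hH,
      h.eq_t_iff h2, h.eq_t_iff h3, h.eq_t_iff h4]
    rintro (e | e | e | e)
    exacts [hx ⟨1, by rw [← e, pow_one]⟩, hx ⟨2, by rw [← e, pow_two]⟩,
      hx ⟨3, by rw [← e, pow_three]⟩, hx ⟨4, by rw [← e, pow_succ', pow_three]⟩]
  · exact lift_supp x hH

theorem cfdot_p0 {χ : G → ℂ} (hχ : Inv ⊤ χ) :
    ⟪Ind 𝒞[t] ⊤ (lift t ε p0), χ⟫[⊤] = conj (χ t) := by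
  rw [cfdot_Ind_left le_top _ hχ, cfdot, h.card_H, Finset.sum_eq_single t]
  · rw [lift_apply t_mem, p0_eq _ (h.det t t_mem), if_pos h.map_t, map_ofNat]
    push_cast
    ring
  · intro x hx hne
    have hx := mem_fs.1 hx
    rw [lift_apply hx, p0_eq _ (h.det x hx), if_neg (mt (h.eq_t_iff hx).1 hne), map_zero, zero_mul]
  · exact fun hn => absurd (mem_fs.2 t_mem) hn

theorem acnt_eq {x : G} (hx : x ∈ DD t) : acnt x = cnt (ε x) := by
  have hH := DD_subset hx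
  obtain ⟨k, hk⟩ := hx
  have key : ∀ u ∈ (invs G).filter fun u => orderOf (u * x) = 2, u ∈ 𝒞[t] := by
    intro u hu
    simp only [Finset.mem_filter, mem_invs, GW5.orderOf_eq_two_iff] at hu
    have h1 : u * x * u⁻¹ = x⁻¹ := by
      rw [inv_eq_of_mul_eq_one_right hu.1.1, eq_inv_iff_mul_eq_one, ← hu.2.1]
      group
    have h2 : u * t * u⁻¹ = t := by
      rw [← hk, ← conj_pow, h1, inv_pow, hk]
      exact inv_eq_of_mul_eq_one_right (GW5.orderOf_eq_two_iff.1 h.ot).1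
    exact mem_centralizer_singleton_iff.2 (mul_inv_eq_iff_eq_mul.1 h2)
  refine Finset.card_bij (fun u _ => ε u) (fun u hu => ?_)
    (fun u hu v hv => h.inj u (key u hu) v (key v hv)) fun m hm => ?_
  · have h1 := key u hu
    simp only [Finset.mem_filter, mem_invs] at hu
    rw [h.invol_iff h1, h.invol_iff (mul_mem h1 hH), h.mul u h1 x hH] at hu
    exact Finset.mem_filter.2 ⟨mem_GL3.2 (h.det u h1), hu⟩
  · obtain ⟨h1, h2⟩ := Finset.mem_filter.1 hm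
    obtain ⟨u, hu, rfl⟩ := h.surj m (mem_GL3.1 h1)
    refine ⟨u, ?_, rfl⟩
    simp only [Finset.mem_filter, mem_invs]
    rwa [h.invol_iff hu, h.invol_iff (mul_mem hu hH), h.mul u hu x hH]

theorem card_G : Nat.card G = 48 * (𝒞[t]).index := by rw [← h.card_H, card_mul_index]

theorem Lam_lift (hf : lift t ε f ∈ supp (DD t)) :
    Lam (Ind 𝒞[t] ⊤ (lift t ε f)) =
      (𝒞[t]).index * val (∑ m ∈ GL3, f m * (cnt m : ℤ√(-2))) := by
  rw [Lam_Ind, h.card_G, h.card_H, map_sum, ← h.sum_eq, Finset.sum_congr rfl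
    (g := fun x => val (f (ε x) * (cnt (ε x) : ℤ√(-2)))) fun x hx => ?_]
  · push_cast
    ring
  · rw [map_mul, map_natCast, ← lift_apply (t := t) (mem_fs.1 hx)]
    by_cases hD : x ∈ DD t
    · rw [h.acnt_eq hD]
    · simp [hf x hD]

theorem index_odd : ¬ 2 ∣ (𝒞[t]).index := by
  obtain ⟨y, hy, e⟩ := h.surj y8 y8_facts.1
  have h2 := mul_mem hy hy
  have h4 : y ^ 4 = t := by
    rw [← h.eq_t_iff (pow_mem hy 4), show y ^ 4 = y * y * (y * y) by
      rw [show 4 = 2 + 2 from rfl, pow_add, pow_two], h.mul _ h2 _ h2, h.mul y hy y hy, e]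
    exact y8_facts.2.1
  have ht := GW5.orderOf_eq_two_iff.1 h.ot
  have h8 : y ^ 2 ^ 3 = 1 := by
    rw [show 2 ^ 3 = 4 + 4 from rfl, pow_add, h4, ht.1]
  have hp : IsPGroup 2 (zpowers y) := by
    rintro ⟨_, k, rfl⟩
    exact ⟨3, Subtype.ext (by
      change (y ^ k) ^ 2 ^ 3 = 1
      rw [← zpow_natCast, ← zpow_mul, mul_comm, zpow_mul, zpow_natCast, h8, one_zpow])⟩
  obtain ⟨P, hP⟩ := hp.exists_le_sylow
  have hyP : y ∈ (P : Subgroup G) := hP (mem_zpowers y)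
  haveI : Nontrivial (P : Subgroup G) :=
    ⟨⟨⟨t, h4 ▸ pow_mem hyP 4⟩, 1, fun e => ht.2 (congrArg Subtype.val e)⟩⟩
  haveI := P.isPGroup'.center_nontrivial
  obtain ⟨n, hn0, hn⟩ := (P.isPGroup'.to_subgroup (center P)).nontrivial_iff_card.1 inferInstance
  obtain ⟨z, hz⟩ := exists_prime_orderOf_dvd_card' (G := center P) 2
    (hn ▸ dvd_pow_self 2 hn0.ne')
  have hc : ∀ a ∈ (P : Subgroup G), a * z.1.1 = z.1.1 * a := fun a ha =>
    congrArg Subtype.val (mem_center_iff.1 z.2 ⟨a, ha⟩)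
  have hzH : z.1.1 ∈ 𝒞[t] :=
    mem_centralizer_singleton_iff.2 (hc t (h4 ▸ pow_mem hyP 4)).symm
  have hz2 := (h.invol_iff hzH).1 (by rw [orderOf_coe, orderOf_coe, hz])
  have hzt : z.1.1 = t := (h.eq_t_iff hzH).1 (eq_neg_of_comm _ hz2.1 hz2.2 (by
    rw [← e, ← h.mul _ hzH y hy, ← h.mul y hy _ hzH, hc y hyP]))
  have hle : (P : Subgroup G) ≤ 𝒞[t] := fun a ha =>
    mem_centralizer_singleton_iff.2 (hzt ▸ hc a ha)
  exact fun hd => P.not_dvd_index (hd.trans (index_dvd_of_le hle))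

theorem one_class (hG : ∀ L : Subgroup G, L.index ≠ 2) (u : G) (hu : orderOf u = 2) :
    IsConj t u := by
  have hv : ∀ x ∈ 𝒞[t], x ∈ cfker 𝒞[t] (lift t ε d) ↔ d (ε x) = 1 := by
    intro x hx
    rw [h.lin_d.mem_cfker, lift_apply hx]
    unfold d
    split_ifs
    · simp [hx]
    · simp only [map_neg, _root_.map_one]
      norm_num
  obtain ⟨y, hy, e⟩ := h.surj y8 y8_facts.1
  have hM : (cfker 𝒞[t] (lift t ε d)).relIndex 𝒞[t] = 2 := by
    rw [relIndex_eq_two_iff]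
    refine ⟨y, hy, fun b hb => ?_⟩
    rw [hv b hb, hv _ (mul_mem hb hy), h.mul b hb y hy, d_mul _ _ (h.det b hb) (h.det y hy), e]
    generalize ε b = m
    revert m
    decide +kernel
  obtain ⟨g, hg⟩ := thompson_transfer hG h.index_odd hM (GW5.orderOf_eq_two_iff.1 hu).1
  have h1 := cfker_le hg
  have h2 := (h.invol_iff h1).1 (by rw [GW5.orderOf_conj', hu])
  have h3 := (h.eq_t_iff h1).1 (eq_neg_of_d _ h2.1 h2.2 ((hv _ h1).1 hg))
  exact (isConj_iff.2 ⟨g, h3⟩).symm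

theorem card_eq (hG : ∀ L : Subgroup G, L.index ≠ 2) :
    Nat.card G = 5616 ∨ Nat.card G = 7920 := by
  have hc := h.one_class hG
  obtain ⟨z0, z1, z6, z2, z4⟩ := h.zp
  have s0 := h.supp_of fun m a b => (supp_p m a b).1
  have s1 := h.supp_of fun m a b => (supp_p m a b).2.1
  have s6 := h.supp_of fun m a b => (supp_p m a b).2.2.1
  have s2 := h.supp_of fun m a b => (supp_p m a b).2.2.2.1
  have s4 := h.supp_of fun m a b => (supp_p m a b).2.2.2.2
  have dotI : ∀ {f g}, lift t ε f ∈ supp (DD t) → lift t ε g ∈ ZIrr 𝒞[t] →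
      lift t ε g ∈ supp (DD t) → ⟪Ind 𝒞[t] ⊤ (lift t ε f), Ind 𝒞[t] ⊤ (lift t ε g)⟫[⊤] =
        val (dot f g) / 48 := fun a b c => by
    rw [(normedTI h.ot).cfdot_Ind DD_subset a ⟨ZIrr_mem_CF b, c⟩, h.cfdot_lift]
  have dot1 : ∀ f, ⟪Ind 𝒞[t] ⊤ (lift t ε f), cf1 ⊤⟫[⊤] = val (dot f 1) / 48 := fun f => by
    rw [cfdot_Ind_left le_top _ (cf1_mem_CF _).2, cfdot_cf1_of_le le_top, ← lift_one (ε := ε),
      h.cfdot_lift]
  have v : ∀ {f}, lift t ε f ∈ supp (DD t) → Ind 𝒞[t] ⊤ (lift t ε f) 1 = 0 := fun a => by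
    rw [Ind_one le_top, a 1, mul_zero]
    rintro ⟨k, hk⟩
    exact (GW5.orderOf_eq_two_iff.1 h.ot).2 (by rw [← hk, one_pow])
  obtain ⟨g11, g66, g61, g22, g21, g26⟩ := gram1
  obtain ⟨g44, g41, g46, g42⟩ := gram2
  obtain ⟨g1, g6, g2, g4, g0⟩ := gram3
  obtain ⟨g00, g01, g06, g02, g04⟩ := gram4
  obtain ⟨A, hA, D, hD, F, hF, E, hE, e2, e4, tA, tD, tF, tE⟩ := gram (L := ⊤)
    (ZIrr_Ind z0 le_top) (ZIrr_Ind z1 le_top) (ZIrr_Ind z6 le_top) (ZIrr_Ind z2 le_top)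
    (ZIrr_Ind z4 le_top) (v s1) (v s6) (v s2)
    (by rw [dotI s1 z1 s1, g11, map_ofNat]; norm_num)
    (by rw [dotI s6 z6 s6, g66, map_ofNat]; norm_num)
    (by rw [dotI s6 z1 s1, g61, map_neg, map_ofNat]; norm_num)
    (by rw [dotI s2 z2 s2, g22, map_ofNat]; norm_num)
    (by rw [dotI s2 z1 s1, g21, map_ofNat]; norm_num)
    (by rw [dotI s2 z6 s6, g26, map_neg, map_ofNat]; norm_num)
    (by rw [dotI s4 z4 s4, g44, map_ofNat]; norm_num)
    (by rw [dotI s4 z1 s1, g41]; simp)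
    (by rw [dotI s4 z6 s6, g46]; simp)
    (by rw [dotI s4 z2 s2, g42, map_ofNat]; norm_num)
    (by rw [dot1, g1]; simp) (by rw [dot1, g6]; simp)
    (by rw [dot1, g2, map_ofNat]; norm_num) (by rw [dot1, g4, map_ofNat]; norm_num)
    (by rw [dot1, g0, map_ofNat]; norm_num)
    (by rw [dotI s0 z0 s0, g00, map_ofNat]; norm_num)
    (by rw [dotI s0 z1 s1, g01]; simp)
    (by rw [dotI s0 z6 s6, g06, map_ofNat]; norm_num)
    (by rw [dotI s0 z2 s2, g02, map_neg, map_ofNat]; norm_num)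
    (by rw [dotI s0 z4 s4, g04, map_ofNat]; norm_num)
  have val_t : ∀ {χ : G → ℂ} {n : ℤ}, χ ∈ DIrr (⊤ : Subgroup G) →
      ⟪Ind 𝒞[t] ⊤ (lift t ε p0), χ⟫[⊤] = n →
      χ 1 * Lam χ = ((𝒞[t]).index : ℂ) ^ 2 * (n : ℂ) ^ 2 := fun {χ n} a b => by
    rw [h.cfdot_p0 (ZIrr_inv (DIrr_mem_ZIrr a))] at b
    rw [Lam_DIrr h.ot hc a, ← Complex.conj_conj (χ t), b, map_intCast]
  have lA := val_t (n := -2) hA (by simpa using tA)
  have lD := val_t (n := -3) hD (by simpa using tD)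
  have lF := val_t (n := 3) hF (by simpa using tF)
  have lE := val_t (n := 4) hE (by simpa using tE)
  have lo := Lam_DIrr h.ot hc (Irr_subset_DIrr (cf1_mem_Irr (⊤ : Subgroup G)))
  have l2 := h.Lam_lift s2
  have l4 := h.Lam_lift s4
  have v2 := v s2
  have v4 := v s4
  rw [lam2, map_ofNat, e2, map_add, map_add] at l2
  rw [lam4, map_ofNat, e4, map_add, map_add] at l4
  rw [e2] at v2
  rw [e4] at v4
  obtain ⟨x, hx⟩ := ZIrr_apply_one (DIrr_mem_ZIrr hA)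
  obtain ⟨z, hz⟩ := ZIrr_apply_one (DIrr_mem_ZIrr hF)
  simp only [Pi.add_apply, cf1_top_apply, hx, hz, one_mul, one_pow, mul_one] at v2 v4 lA lF lo
  have hD1 : D 1 = -(x + 1) := by linear_combination v2
  have hE1 : E 1 = -(z + 1) := by linear_combination v4
  rw [hD1] at lD
  rw [hE1] at lE
  have hk : ((𝒞[t]).index : ℂ) ≠ 0 := Nat.cast_ne_zero.2 FiniteIndex.index_ne_zero
  have a1 : ((𝒞[t]).index : ℂ) * (x - 2) ^ 2 = 96 * x * (x + 1) := by
    refine mul_left_cancel₀ hk ?_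
    push_cast at lA lD
    linear_combination (x * (x + 1) : ℂ) * (l2 - lo) - (x + 1 : ℂ) * lA + (x : ℂ) * lD
  have a2 : ((𝒞[t]).index : ℂ) * (z - 3) ^ 2 = 192 * z * (z + 1) := by
    refine mul_left_cancel₀ hk ?_
    push_cast at lF lE
    linear_combination (z * (z + 1) : ℂ) * (l4 - lo) - (z + 1 : ℂ) * lF + (z : ℂ) * lE
  rcases arith h.index_odd (x := x) (z := z) (by exact_mod_cast a1) (by exact_mod_cast a2) with
    e | e <;> simp [h.card_G, e]

end Model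

theorem card_eq_of_centralizer [IsSimpleGroup G] {t : G} (ht : orderOf t = 2)
    (e : centralizer ({t} : Set G) ≃* Matrix.GeneralLinearGroup (Fin 2) (ZMod 3)) :
    Nat.card G = 5616 ∨ Nat.card G = 7920 := by
  obtain ⟨ε, h⟩ := exists_model ht e
  refine h.card_eq fun L hL => ?_
  have h1 := h.card_G
  have h2 : (𝒞[t]).index ≠ 0 := FiniteIndex.index_ne_zero
  rcases (normal_of_index_eq_two hL).eq_bot_or_eq_top with rfl | rfl
  · rw [index_bot] at hL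
    omega
  · simp at hL

end Cfsg.Agent.H4.BW
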