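import Cfsg.Agent.Lib.H5.Third
import Cfsg.Agent.Lib.H3.Cover
import Cfsg.Agent.Lib.H4.BrauerPerm
import Cfsg.Agent.Lib.H4.GroupCount

/-!
# Blocks with a normal defect group
-/

set_option autoImplicit false
set_option linter.unusedSectionVars false

open MonoidAlgebra
open scoped ComplexConjugate

namespace Cfsg.Agent.H4

open Cfsg Cfsg.Agent Cfsg.Agent.H5

section PC

variable {p : ℕ} [Fact p.Prime] {G : Type*} [Group G] [Finite G] {P : Subgroup G}

theorem exists_cen_mul_of_sup (hG : P ⊔ Subgroup.centralizer (P : Set G) = ⊤) (g : G) :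
    ∃ c ∈ Subgroup.centralizer (P : Set G), ∃ v ∈ P, g = c * v := by
  have hg : g ∈ P ⊔ Subgroup.centralizer (P : Set G) := hG ▸ Subgroup.mem_top g
  rw [Subgroup.sup_eq_closure] at hg
  induction hg using Subgroup.closure_induction with
  | mem x hx =>
    rcases hx with hx | hx
    · exact ⟨1, Subgroup.one_mem _, x, hx, by simp⟩
    · exact ⟨x, hx, 1, P.one_mem, by simp⟩
  | one => exact ⟨1, Subgroup.one_mem _, 1, P.one_mem, by simp⟩
  | mul x y _ _ hx hy =>
    obtain ⟨c, hc, v, hv, rfl⟩ := hx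
    obtain ⟨d, hd, w, hw, rfl⟩ := hy
    refine ⟨c * d, Subgroup.mul_mem _ hc hd, v * w, P.mul_mem hv hw, ?_⟩
    have := Subgroup.mem_centralizer_iff.mp hd v hv
    calc c * v * (d * w) = c * (v * d) * w := by group
      _ = c * (d * v) * w := by rw [this]
      _ = _ := by group
  | inv x _ hx =>
    obtain ⟨c, hc, v, hv, rfl⟩ := hx
    refine ⟨c⁻¹, Subgroup.inv_mem _ hc, v⁻¹, P.inv_mem hv, ?_⟩
    have := Subgroup.mem_centralizer_iff.mp hc v hv
    rw [← this]; group

theorem normal_of_sup_centralizer (hG : P ⊔ Subgroup.centralizer (P : Set G) = ⊤) : P.Normal := by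
  refine ⟨fun n hn g => ?_⟩
  obtain ⟨c, hc, v, hv, rfl⟩ := exists_cen_mul_of_sup hG g
  have h1 : v * n * v⁻¹ ∈ P := P.mul_mem (P.mul_mem hv hn) (P.inv_mem hv)
  have := Subgroup.mem_centralizer_iff.mp hc _ h1
  have h2 : c * v * n * (c * v)⁻¹ = c * (v * n * v⁻¹) * c⁻¹ := by group
  rw [h2, ← this]; simpa using h1

theorem pReg_mem_centralizer (hP : IsPGroup p P)
    (hG : P ⊔ Subgroup.centralizer (P : Set G) = ⊤) (y : G) (hy : ¬ p ∣ orderOf y) :
    y ∈ Subgroup.centralizer (P : Set G) := by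
  have := normal_of_sup_centralizer hG
  refine mem_of_pReg_of_index (p := p) ?_ hy
  have h1 : (Subgroup.centralizer (P : Set G)).index =
      (Subgroup.centralizer (P : Set G)).relIndex P := by
    rw [← Subgroup.relIndex_sup_right, hG, Subgroup.relIndex_top_right]
  obtain ⟨k, hk⟩ := IsPGroup.iff_card.mp hP
  have h2 : (Subgroup.centralizer (P : Set G)).relIndex P ∣ p ^ k := by
    rw [← hk]; exact Subgroup.index_dvd_card _
  obtain ⟨j, -, hj⟩ := (Nat.dvd_prime_pow Fact.out).mp h2
  exact ⟨j, h1.trans hj⟩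

variable {M : Ideal AlgInt} [PMod p M]

theorem push_blockIdem {K : Type*} [Group K] [Finite K] (f : G →* K) (hf : Function.Surjective f)
    (B : Set (IrrCharacter G)) :
    push ℂ f (blockIdem B) = blockIdem {ψ : IrrCharacter K | H3.inflIrr f hf ψ ∈ B} := by
  refine eq_blockIdem (push_mem_cen hf (blockIdem_mem_cen B)) ?_ ?_
  · intro ψ hψ
    rw [om_push]
    exact om_blockIdem_of_mem (ψ := H3.inflIrr f hf ψ) hψ
  · intro ψ hψ
    rw [om_push]
    exact om_blockIdem_of_notMem (ψ := H3.inflIrr f hf ψ) hψ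

/-- The canonical character of a block whose defect group `P` is centralized by all
`p`-regular elements. -/
theorem exists_canonical [P.Normal] (hP : IsPGroup p P)
    (hC : ∀ y : G, ¬ p ∣ orderOf y → y ∈ Subgroup.centralizer (P : Set G))
    {B : Set (IrrCharacter G)} (hB : IsPBlock M B) (hD : IsDefectGroup p M B P) :
    ∃ θ : IrrCharacter (G ⧸ P), (charDegree (θ : G ⧸ P → ℂ)).factorization p =
      P.index.factorization p ∧ ∀ ψ : IrrCharacter (G ⧸ P),
        H3.inflIrr (QuotientGroup.mk' P) (QuotientGroup.mk'_surjective P) ψ ∈ B ↔ ψ = θ := by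
  set f := QuotientGroup.mk' P with hf
  have hfs : Function.Surjective f := QuotientGroup.mk'_surjective P
  have hker : f.ker = P := QuotientGroup.ker_mk' P
  have hP' : IsPGroup p f.ker := by rw [hker]; exact hP
  have hC' : ∀ y : G, ¬ p ∣ orderOf y → y ∈ Subgroup.centralizer (f.ker : Set G) := by
    rw [hker]; exact hC
  obtain ⟨θ, hθ⟩ := H3.exists_inflIrr_mem_of_pReg f hfs hP' hC' hB
  have hiff : ∀ ψ : IrrCharacter (G ⧸ P),
      H3.inflIrr f hfs ψ ∈ B ↔ ψ ∈ blockOf M (θ : G ⧸ P → ℂ) := by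
    intro ψ
    rw [mem_blockOf, ← H3.sameBlock_inflIrr_iff_of_pReg f hfs hP' hC']
    exact ⟨fun h => blk_sameBlock hB hθ h, fun h => blk_mem_of_sameBlock hB hθ h⟩
  have hpush : push ℂ f (blockIdem B) = blockIdem (blockOf M (θ : G ⧸ P → ℂ)) := by
    rw [push_blockIdem f hfs]
    congr 1
    ext ψ; exact hiff ψ
  have hb := isPBlock_blockOf (M := M) θ
  obtain ⟨k, hk⟩ := exists_defectClass hb
  have hkr : ¬ p ∣ orderOf k := defectClass_pReg hb hk
  obtain ⟨y, hy, rfl⟩ := H3.exists_pReg_lift f hfs hkr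
  have hco : blockCoeff (blockOf M (θ : G ⧸ P → ℂ)) (f y) = blockCoeff B y := by
    rw [← coeff_blockIdem, ← hpush, H3.coeff_push_of_pReg f hP' hC' _ hy, coeff_blockIdem]
    intro g hg
    rw [coeff_blockIdem]
    exact blockCoeff_eq_zero_of_pSing (ZO.og (blk_idem_mem hB)) hg
  have hsyl := sylIn_of_blockCoeff hB hD (y := y) (by rw [← hco]; exact defectClass_coeff hk)
  have hcomap : (Subgroup.centralizer ({f y} : Set (G ⧸ P))).comap f =
      Subgroup.centralizer ({y} : Set G) := by
    ext x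
    simp only [Subgroup.mem_comap, Subgroup.mem_centralizer_singleton_iff]
    constructor
    · intro h
      have h1 : f (x * y * x⁻¹) = f y := by
        rw [map_mul, map_mul, h, map_inv]; group
      have h2 := H3.eq_of_pReg_of_map_eq f hP' hC' (by rw [orderOf_conj']; exact hy) hy h1
      calc x * y = x * y * x⁻¹ * x := by group
        _ = y * x := by rw [h2]
    · intro h
      rw [← map_mul, h, map_mul]
  have hidx : (Subgroup.centralizer ({f y} : Set (G ⧸ P))).index =
      (Subgroup.centralizer ({y} : Set G)).index := by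
    rw [← hcomap, Subgroup.index_comap_of_surjective _ hfs]
  have h1 := factorization_index_add (p := p) (Subgroup.centralizer ({y} : Set G))
  have h2 := factorization_index_add (p := p) P
  have h3 : (Nat.card P).factorization p =
      (Nat.card (Subgroup.centralizer ({y} : Set G))).factorization p := by
    rw [SylIn_card hsyl, Nat.Prime.factorization_pow Fact.out]; simp
  have hmin := minDeg_eq_index (p := p) hb hk
  have hcard : Nat.card (G ⧸ P) = P.index := rfl
  have h0 : blockDefect p (blockOf M (θ : G ⧸ P → ℂ)) = 0 := by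
    rw [blockDefect_eq, hmin, hidx, hcard]; omega
  refine ⟨θ, ?_, fun ψ => ?_⟩
  · rw [degree_eq_of_blockDefect_eq_zero h0 (self_mem_blockOf θ), hcard]
  · rw [hiff, blk_eq_singleton_of_blockDefect_eq_zero hb h0 (self_mem_blockOf θ)]
    rfl

/-- The values of the characters in the block. -/
theorem canonical_mul (hP : IsPGroup p P) (hG : P ⊔ Subgroup.centralizer (P : Set G) = ⊤)
    {B : Set (IrrCharacter G)} (hB : IsPBlock M B) {θ : IrrCharacter G}
    (hθP : ∀ x ∈ P, (θ : G → ℂ) x = (θ : G → ℂ) 1)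
    (huniq : ∀ ψ ∈ B, (∀ x ∈ P, (ψ : G → ℂ) x = (ψ : G → ℂ) 1) → ψ = θ)
    {χ : IrrCharacter G} (hχ : χ ∈ B) {u : G} (hu : u ∈ P) {y : G} (hy : ¬ p ∣ orderOf y) :
    (χ : G → ℂ) (u * y) * (θ : G → ℂ) 1 = (χ : G → ℂ) u * (θ : G → ℂ) y := by
  classical
  have := normal_of_sup_centralizer hG
  have := Fintype.ofFinite G
  have hC := pReg_mem_centralizer hP hG
  set f := QuotientGroup.mk' P with hf
  have hfs : Function.Surjective f := QuotientGroup.mk'_surjective P
  have hker : f.ker = P := QuotientGroup.ker_mk' P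
  have hP' : IsPGroup p f.ker := by rw [hker]; exact hP
  have hC' : ∀ y : G, ¬ p ∣ orderOf y → y ∈ Subgroup.centralizer (f.ker : Set G) := by
    rw [hker]; exact hC
  obtain ⟨θ', rfl⟩ := H3.exists_inflIrr f hfs (ψ := θ) (by rw [hker]; exact hθP)
  set a : ℂ[G] := zreg p (fun g => (χ : G → ℂ) (u * g)) with ha
  have hacen : a ∈ cen ℂ G := by
    rw [mem_cen]
    intro g h
    rw [ha, coeff_zreg, coeff_zreg, orderOf_conj']
    split_ifs with hg
    · rfl
    · obtain ⟨c, hc, v, hv, rfl⟩ := exists_cen_mul_of_sup hG h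
      have h1 := Subgroup.mem_centralizer_iff.mp (hC g⁻¹ (pReg_inv hg)) v hv
      have h2 := Subgroup.mem_centralizer_iff.mp hc u hu
      have h3 : u * (c * v * g * (c * v)⁻¹)⁻¹ = c * (u * g⁻¹) * c⁻¹ := by
        calc u * (c * v * g * (c * v)⁻¹)⁻¹ = (u * c) * (v * g⁻¹) * v⁻¹ * c⁻¹ := by group
          _ = (c * u) * (g⁻¹ * v) * v⁻¹ * c⁻¹ := by rw [h1, h2]
          _ = _ := by group
      simp only [h3]
      exact irr_isClassFunction χ _ _
  have hom : ∀ ψ : IrrCharacter (G ⧸ P), ψ ≠ θ' → om ψ (push ℂ f a) = 0 := by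
    intro ψ hψ
    have hn : ¬ SameBlock M (χ : G → ℂ) (H3.inflIrr f hfs ψ) := by
      intro h
      apply hψ
      apply H3.inflIrr_injective f hfs
      refine huniq _ (blk_mem_of_sameBlock hB hχ h) ?_
      intro x hx
      rw [H3.inflIrr_apply, H3.inflIrr_apply, map_one,
        show f x = 1 from (QuotientGroup.eq_one_iff x).mpr hx]
    rw [om_push, om_eq]
    have h1 : ev (fun g => (ψ : G ⧸ P → ℂ) (f g)) a = 0 := by
      rw [ha, ev_zreg_comm, ev_eq_sum, ← ev_single_mul]
      have := ev_mul_cen χ (ZO.cen (zreg_irr_mem_ZO (p := p) (M := M) (H3.inflIrr f hfs ψ)))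
        (single u 1)
      rw [om_zreg_eq_zero hn, zero_mul] at this
      exact this
    rw [h1, zero_div]
  have hpush : push ℂ f a = om θ' (push ℂ f a) • blockIdem {θ'} := by
    refine cen_ext_om (push_mem_cen hfs hacen)
      (Subalgebra.smul_mem _ (blockIdem_mem_cen _) _) fun ψ => ?_
    rw [map_smul, om_blockIdem]
    by_cases h : ψ = θ'
    · subst h; simp
    · rw [hom ψ h]; simp [h]
  have hval : ∀ z : G, ¬ p ∣ orderOf z → (χ : G → ℂ) (u * z) =
      (om θ' (push ℂ f a) * (Nat.card (G ⧸ P) : ℂ)⁻¹ * (θ' : G ⧸ P → ℂ) 1) *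
        (θ' : G ⧸ P → ℂ) (f z) := by
    intro z hz
    have h1 := H3.coeff_push_of_pReg f hP' hC' (a := a) (fun g hg => by
      rw [ha, coeff_zreg, if_pos hg]) (pReg_inv hz)
    rw [hpush, coeff_smul', coeff_blockIdem, blockCoeff_eq, fs_singleton, Finset.sum_singleton,
      ha, coeff_zreg, if_neg (pReg_inv hz), inv_inv, map_inv,
      H3.IsCharacter_apply_inv (irr_isCharacter θ'), Complex.conj_conj] at h1
    rw [← h1, ← ha]; ring
  have h1 := hval 1 pReg_one
  rw [mul_one] at h1
  rw [hval y hy, h1, H3.inflIrr_apply, H3.inflIrr_apply]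
  ring

theorem sum_eq_sum_pPart [Fintype G] [Fintype P] (hP : IsPGroup p P)
    (hC : ∀ y : G, ¬ p ∣ orderOf y → y ∈ Subgroup.centralizer (P : Set G))
    (F : G → ℂ) (hF : ∀ g, pPart p g ∉ P → F g = 0) :
    ∑ g, F g = ∑ u : P, ∑ y ∈ Finset.univ.filter (fun y : G => ¬ p ∣ orderOf y), F (u * y) := by
  classical
  rw [← Finset.sum_product']
  rw [← Finset.sum_filter_add_sum_filter_not Finset.univ (fun g => pPart p g ∈ P),
    Finset.sum_eq_zero (s := Finset.univ.filter fun g => ¬ pPart p g ∈ P)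
      (fun g hg => hF g (by simpa using hg)), add_zero]
  symm
  have hcomm : ∀ (u : P) (y : G), ¬ p ∣ orderOf y → Commute (u : G) y := fun u y hy =>
    Subgroup.mem_centralizer_iff.mp (hC y hy) u u.2
  refine Finset.sum_bij (fun x _ => (x.1 : G) * x.2) ?_ ?_ ?_ (fun _ _ => rfl)
  · intro x hx
    have hy : ¬ p ∣ orderOf x.2 := by simpa using hx
    simp only [Finset.mem_filter, Finset.mem_univ, true_and]
    rw [pPart_mul (hcomm _ _ hy) (pElt_of_mem hP x.1.2) hy]; exact x.1.2
  · intro x hx x' hx' h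
    have hy : ¬ p ∣ orderOf x.2 := by simpa using hx
    have hy' : ¬ p ∣ orderOf x'.2 := by simpa using hx'
    have h1 := pPart_mul (hcomm _ _ hy) (pElt_of_mem hP x.1.2) hy
    have h2 := pPart_mul (hcomm _ _ hy') (pElt_of_mem hP x'.1.2) hy'
    have h3 := pPart'_mul (hcomm _ _ hy) (pElt_of_mem hP x.1.2) hy
    have h4 := pPart'_mul (hcomm _ _ hy') (pElt_of_mem hP x'.1.2) hy'
    refine Prod.ext (Subtype.ext ?_) ?_
    · rw [← h1, ← h2, h]
    · rw [← h3, ← h4, h]
  · intro g hg
    have hg' : pPart p g ∈ P := by simpa using hg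
    exact ⟨(⟨_, hg'⟩, pPart' p g), by simpa using pPart'_pReg g, pPart_mul_pPart' g⟩

theorem canonical_classInner [Fintype G] [Fintype P] (hP : IsPGroup p P)
    (hG : P ⊔ Subgroup.centralizer (P : Set G) = ⊤)
    {B : Set (IrrCharacter G)} (hB : IsPBlock M B) (hD : IsDefectGroup p M B P)
    {θ : IrrCharacter G} (hθ : θ ∈ B) (hθP : ∀ x ∈ P, (θ : G → ℂ) x = (θ : G → ℂ) 1)
    (huniq : ∀ ψ ∈ B, (∀ x ∈ P, (ψ : G → ℂ) x = (ψ : G → ℂ) 1) → ψ = θ)
    {χ ψ : IrrCharacter G} (hχ : χ ∈ B) (hψ : ψ ∈ B) :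
    classInner (fun u : P => (χ : G → ℂ) u) (fun u : P => (ψ : G → ℂ) u) =
      (θ : G → ℂ) 1 ^ 2 * classInner (χ : G → ℂ) ψ := by
  classical
  have := normal_of_sup_centralizer hG
  have hC := pReg_mem_centralizer hP hG
  set S : ℂ := ∑ y ∈ Finset.univ.filter (fun y : G => ¬ p ∣ orderOf y),
    (θ : G → ℂ) y * conj ((θ : G → ℂ) y) with hS
  have hre : conj ((θ : G → ℂ) 1) = (θ : G → ℂ) 1 := by
    rw [← charDegree_irr_cast θ.2]; simp
  have key : ∀ χ ∈ B, ∀ ψ ∈ B, (θ : G → ℂ) 1 ^ 2 * ∑ g, (χ : G → ℂ) g * conj ((ψ : G → ℂ) g) =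
      (∑ u : P, (χ : G → ℂ) u * conj ((ψ : G → ℂ) u)) * S := by
    intro χ hχ ψ hψ
    rw [sum_eq_sum_pPart hP hC, Finset.mul_sum, Finset.sum_mul]
    · refine Finset.sum_congr rfl fun u _ => ?_
      rw [hS, Finset.mul_sum, Finset.mul_sum]
      refine Finset.sum_congr rfl fun y hy => ?_
      have hy' : ¬ p ∣ orderOf y := by simpa using hy
      have h1 := canonical_mul hP hG hB hθP huniq hχ u.2 hy'
      have h2 := congrArg conj (canonical_mul hP hG hB hθP huniq hψ u.2 hy')
      rw [map_mul, map_mul, hre] at h2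
      linear_combination (conj ((ψ : G → ℂ) (u * y)) * (θ : G → ℂ) 1) * h1 +
        ((χ : G → ℂ) u * (θ : G → ℂ) y) * h2
    · intro g hg
      rw [irr_eq_zero_of_notMem_defectGroup (p := p) hB hχ, zero_mul]
      intro D hD'
      rw [defectGroup_eq_of_normal hB hD hD']; exact hg
  have h1 := key θ hθ θ hθ
  have h2 := H3.IsIrrCharacter_classInner_self θ.2
  have hG0 : (Nat.card G : ℂ) ≠ 0 := H3.card_ne_zero_complex G
  have hP0 : (Nat.card P : ℂ) ≠ 0 := H3.card_ne_zero_complex P
  have hθ0 : (θ : G → ℂ) 1 ≠ 0 := irr_one_ne_zero θ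
  have h3 : ∑ u : P, (θ : G → ℂ) u * conj ((θ : G → ℂ) u) = Nat.card P * (θ : G → ℂ) 1 ^ 2 := by
    rw [Finset.sum_congr rfl fun (u : P) _ => by rw [hθP u u.2, hre]]
    simp [Nat.card_eq_fintype_card, sq]
  unfold classInner at h2 ⊢
  have h4 : ∑ g, (θ : G → ℂ) g * conj ((θ : G → ℂ) g) = Nat.card G := by
    field_simp at h2; exact h2
  rw [h4, h3] at h1
  have h5 : (Nat.card G : ℂ) = Nat.card P * S := by
    apply mul_left_cancel₀ (pow_ne_zero 2 hθ0); rw [h1]; ring
  have h6 := key χ hχ ψ hψ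
  have hS0 : S ≠ 0 := by
    intro h; rw [h, mul_zero] at h5; exact hG0 h5
  rw [h5]
  field_simp
  linear_combination -h6

/-- Every irreducible character of a normal `p`-subgroup lies under a member of any block. -/
theorem exists_over_of_normal_pgroup [Fintype P] (hP : IsPGroup p P)
    {B : Set (IrrCharacter G)} (hB : IsPBlock M B) (ξ : IrrCharacter P) :
    ∃ χ ∈ B, classInner (fun u : P => (χ : G → ℂ) u) ξ ≠ 0 := by
  classical
  by_contra hcon
  push Not at hcon
  have h1 : classInner (∑ χ ∈ fs B, conj ((χ : G → ℂ) 1) • fun u : P => (χ : G → ℂ) u) ξ = 0 := by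
    rw [classInner_sum_left]
    refine Finset.sum_eq_zero fun χ hχ => ?_
    rw [classInner_smul_left, hcon χ (mem_fs.mp hχ), mul_zero]
  unfold classInner at h1
  rw [Finset.sum_eq_single (1 : P)] at h1
  · simp only [Finset.sum_apply, Pi.smul_apply, smul_eq_mul, OneMemClass.coe_one, mul_eq_zero,
      inv_eq_zero, map_eq_zero] at h1
    rcases h1 with h1 | h1 | h1
    · exact H3.card_ne_zero_complex P h1
    · obtain ⟨χ₀, hχ₀⟩ := blk_nonempty hB
      have h2 : ((∑ χ ∈ fs B, charDegree (χ : G → ℂ) ^ 2 : ℕ) : ℂ) = 0 := by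
        rw [← h1]
        push_cast
        refine Finset.sum_congr rfl fun χ _ => ?_
        rw [← charDegree_irr_cast χ.2]; simp [sq]
      have h3 := Finset.sum_eq_zero_iff.mp (Nat.cast_eq_zero.mp h2) χ₀ (mem_fs.mpr hχ₀)
      exact charDegree_ne_zero χ₀ (pow_eq_zero_iff two_ne_zero |>.mp h3)
    · exact irr_one_ne_zero ξ h1
  · intro u _ hu
    have hu' : p ∣ orderOf (u : G) := by
      by_contra h
      exact hu (Subtype.ext (eq_one_of_pElt_of_pReg (pElt_of_mem hP u.2) h))
    have := weak_orthogonality' (ZO.og (blk_idem_mem hB)) hu' (pReg_one (p := p))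
    simp only [Finset.sum_apply, Pi.smul_apply, smul_eq_mul]
    rw [Finset.sum_congr rfl fun χ _ => mul_comm _ _, this, zero_mul]
  · simp

theorem cj_eq_of_sup_centralizer [P.Normal] (hG : P ⊔ Subgroup.centralizer (P : Set G) = ⊤)
    {ξ : P → ℂ} (hξ : IsClassFunction P ξ) (g : G) : cj g ξ = ξ := by
  obtain ⟨c, hc, v, hv, rfl⟩ := exists_cen_mul_of_sup hG g
  have h1 : cj c ξ = ξ := by
    funext n
    rw [cj_apply]
    congr 1
    apply Subtype.ext
    have := Subgroup.mem_centralizer_iff.mp hc n n.2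
    simp only
    rw [← this]; group
  rw [cj_mul, h1, cj_of_mem hξ hv]

theorem canonical_res [Fintype P] (hP : IsPGroup p P)
    (hG : P ⊔ Subgroup.centralizer (P : Set G) = ⊤)
    {B : Set (IrrCharacter G)} (hB : IsPBlock M B) (hD : IsDefectGroup p M B P)
    {θ : IrrCharacter G} (hθ : θ ∈ B) (hθP : ∀ x ∈ P, (θ : G → ℂ) x = (θ : G → ℂ) 1)
    (huniq : ∀ ψ ∈ B, (∀ x ∈ P, (ψ : G → ℂ) x = (ψ : G → ℂ) 1) → ψ = θ)
    {χ : IrrCharacter G} (hχ : χ ∈ B) {ξ : IrrCharacter P}
    (hξ : classInner (fun u : P => (χ : G → ℂ) u) ξ ≠ 0) :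
    (fun u : P => (χ : G → ℂ) u) = (θ : G → ℂ) 1 • (ξ : P → ℂ) := by
  have := normal_of_sup_centralizer hG
  have := Fintype.ofFinite G
  have h1 := res_eq_smul_of_invariant χ.2 ξ.2
    (cj_eq_of_sup_centralizer hG (irr_isClassFunction ξ)) hξ
  have h2 := canonical_classInner hP hG hB hD hθ hθP huniq hχ hχ
  rw [← mult_cast (H3.IsCharacter_restrict P (irr_isChar χ)) (irr_isChar ξ)] at h1
  rw [h1, classInner_smul_left, classInner_smul_right, H3.IsIrrCharacter_classInner_self ξ.2,
    H3.IsIrrCharacter_classInner_self χ.2, ← charDegree_irr_cast θ.2] at h2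
  simp only [map_natCast, mul_one] at h2
  have h3 : mult (fun u : P => (χ : G → ℂ) u) ξ = charDegree (θ : G → ℂ) := by
    have : mult (fun u : P => (χ : G → ℂ) u) ξ ^ 2 = charDegree (θ : G → ℂ) ^ 2 := by
      rw [← sq] at h2; exact_mod_cast h2
    exact Nat.pow_left_injective two_ne_zero this
  rw [h1, h3, charDegree_irr_cast θ.2]

theorem exists_canonical' (hP : IsPGroup p P) (hG : P ⊔ Subgroup.centralizer (P : Set G) = ⊤)
    {B : Set (IrrCharacter G)} (hB : IsPBlock M B) (hD : IsDefectGroup p M B P) :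
    ∃ θ ∈ B, (∀ x ∈ P, (θ : G → ℂ) x = (θ : G → ℂ) 1) ∧
      (charDegree (θ : G → ℂ)).factorization p = P.index.factorization p ∧
      ∀ ψ ∈ B, (∀ x ∈ P, (ψ : G → ℂ) x = (ψ : G → ℂ) 1) → ψ = θ := by
  have := normal_of_sup_centralizer hG
  obtain ⟨θ, h1, h2⟩ := exists_canonical hP (pReg_mem_centralizer hP hG) hB hD
  refine ⟨_, (h2 θ).mpr rfl, fun x hx => ?_, ?_, fun ψ hψ h => ?_⟩
  · rw [H3.inflIrr_apply, H3.inflIrr_apply, map_one,
      show QuotientGroup.mk' P x = 1 from (QuotientGroup.eq_one_iff x).mpr hx]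
  · rw [← h1]
    congr 1
  · obtain ⟨ψ', rfl⟩ := H3.exists_inflIrr (QuotientGroup.mk' P) (QuotientGroup.mk'_surjective P)
      (ψ := ψ) (by rw [QuotientGroup.ker_mk']; exact h)
    rw [(h2 ψ').mp hψ]

theorem card_block_eq (hP : IsPGroup p P) (hG : P ⊔ Subgroup.centralizer (P : Set G) = ⊤)
    {B : Set (IrrCharacter G)} (hB : IsPBlock M B) (hD : IsDefectGroup p M B P) :
    Nat.card B = Nat.card (ConjClasses P) := by
  classical
  have := normal_of_sup_centralizer hG
  have := Fintype.ofFinite G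
  have := Fintype.ofFinite P
  obtain ⟨θ, hθ, hθP, -, huniq⟩ := exists_canonical' hP hG hB hD
  rw [← H3.card_irr_eq_card_conjClasses]
  choose F hF using fun χ : IrrCharacter G => H3.exists_under (N := P) χ
  have hθ0 : (θ : G → ℂ) 1 ≠ 0 := irr_one_ne_zero θ
  refine Nat.card_eq_of_bijective (fun χ : B => F χ) ⟨?_, ?_⟩
  · intro χ ψ h
    simp only at h
    by_contra hne
    have hne' : (χ.1 : G → ℂ) ≠ ψ.1 := fun h => hne (Subtype.ext (Subtype.ext h))
    have h1 := canonical_classInner hP hG hB hD hθ hθP huniq χ.2 ψ.2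
    rw [canonical_res hP hG hB hD hθ hθP huniq χ.2 (hF χ),
      canonical_res hP hG hB hD hθ hθP huniq ψ.2 (hF ψ), h, classInner_smul_left,
      classInner_smul_right, H3.IsIrrCharacter_classInner_self (F ψ).2,
      H3.IsIrrCharacter_classInner_of_ne χ.1.2 ψ.1.2 hne'] at h1
    simp [hθ0] at h1
  · intro ξ
    obtain ⟨χ, hχ, h⟩ := exists_over_of_normal_pgroup hP hB ξ
    refine ⟨⟨χ, hχ⟩, ?_⟩
    have h1 := canonical_res hP hG hB hD hθ hθP huniq hχ h
    have h2 := canonical_res hP hG hB hD hθ hθP huniq hχ (hF χ)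
    rw [h1] at h2
    exact Subtype.ext (smul_right_injective _ hθ0 h2).symm

end PC

section Reynolds

variable {p : ℕ} [Fact p.Prime] {G : Type*} [Group G] [Finite G] {P : Subgroup G}
  {M : Ideal AlgInt} [PMod p M]

theorem isInducedBlock_of_under [P.Normal] (hP : IsPGroup p P) {H : Subgroup G} [H.Normal]
    [Fintype H] (hCH : Subgroup.centralizer (P : Set G) ≤ H) {χ : IrrCharacter G}
    {φ : IrrCharacter H} (h : classInner (fun n : H => (χ : G → ℂ) n) φ ≠ 0) :
    IsInducedBlock M H (blockOf M (φ : H → ℂ)) (blockOf M (χ : G → ℂ)) := by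
  refine isInducedBlock_of_lam (isPBlock_blockOf φ) (isPBlock_blockOf χ) (self_mem_blockOf φ)
    (self_mem_blockOf χ) fun g => ?_
  by_cases hg : g ∈ H
  · exact (H3.lam_eq_lam_resS_of_under h (classSum_mem_cen g)
      (H3.classSum_coeff_of_notMem (N := H) ⟨g, hg⟩)).symm
  · have h1 : resS H (classSum ℂ g) = 0 := by
      refine ga_ext fun x => ?_
      rw [coeff_resS, coeff_classSum, if_neg]
      · rfl
      · intro hc
        obtain ⟨c, hc⟩ := isConj_iff.mp hc.symm
        exact hg (hc ▸ (inferInstance : H.Normal).conj_mem _ x.2 c)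
    rw [h1, lam_zero]
    by_contra hne
    exact hg (hCH (mem_centralizer_of_lam_classSum hP (Ne.symm hne)))

/-- If every irreducible character over `θ` has degree with large `p`-part, the inertia quotient
has order prime to `p`. -/
theorem index_inertia_factorization {H : Subgroup G} [H.Normal] [Fintype H] {θ : IrrCharacter H}
    (h : ∀ χ : IrrCharacter G, classInner (fun n : H => (χ : G → ℂ) n) θ ≠ 0 →
      H.index.factorization p + (charDegree (θ : H → ℂ)).factorization p ≤
        (charDegree (χ : G → ℂ)).factorization p) :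
    (inertia (θ : H → ℂ)).index.factorization p = H.index.factorization p := by
  classical
  have := Fintype.ofFinite G
  set T := inertia (θ : H → ℂ) with hT
  have hHT : H ≤ T := le_inertia (irr_isClassFunction θ)
  have hidx : H.relIndex T * T.index = H.index := Subgroup.relIndex_mul_index hHT
  have hr0 : H.relIndex T ≠ 0 := Subgroup.FiniteIndex.index_ne_zero
  have hT0 : T.index ≠ 0 := Subgroup.FiniteIndex.index_ne_zero
  have hfac : (H.relIndex T).factorization p + T.index.factorization p = H.index.factorization p := by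
    rw [← hidx, Nat.factorization_mul hr0 hT0]; rfl
  set a := (H.relIndex T).factorization p with ha
  have hind : IsCharacter G (indFun H θ) := isCharacter_indFun H (irr_isChar θ)
  have hnorm : mult (indFun H θ) (indFun H θ) = H.relIndex T := by
    have h1 := card_mul_norm_ind_irr (G := G) θ.2
    rw [← mult_cast hind hind, ← hT, ← Subgroup.card_mul_index (H.subgroupOf T),
      Nat.card_congr (Subgroup.subgroupOfEquivOfLe hHT).toEquiv] at h1
    have h2 : Nat.card H * mult (indFun H θ) (indFun H θ) = Nat.card H * H.relIndex T := by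
      exact_mod_cast h1
    exact Nat.eq_of_mul_eq_mul_left Nat.card_pos h2
  have hdvd : p ^ (2 * a) ∣ H.relIndex T := by
    rw [← hnorm, mult_eq_sum_mult hind hind]
    refine Finset.dvd_sum fun χ _ => ?_
    have hm : mult (indFun H θ) χ = mult (fun n : H => (χ : G → ℂ) n) θ := by
      rw [mult_comm (H3.IsCharacter_restrict H (irr_isChar χ)) (irr_isChar θ)]
      apply mult_eq_of_classInner
      rw [frobenius_reciprocity H _ (irr_isClassFunction χ),
        mult_cast (irr_isChar θ) (H3.IsCharacter_restrict H (irr_isChar χ))]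
    rw [hm, two_mul, pow_add]
    by_cases h0 : mult (fun n : H => (χ : G → ℂ) n) θ = 0
    · rw [h0]; simp
    · have h1 : classInner (fun n : H => (χ : G → ℂ) n) θ ≠ 0 := by
        rwa [Ne, ← mult_eq_zero_iff (H3.IsCharacter_restrict H (irr_isChar χ)) (irr_isChar θ)]
      have h2 := h χ h1
      rw [clifford_degree χ.2 θ.2 h1, Nat.factorization_mul h0
        (mul_ne_zero hT0 (charDegree_ne_zero θ)),
        Nat.factorization_mul hT0 (charDegree_ne_zero θ)] at h2
      simp only [Finsupp.add_apply] at h2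
      have h3 : p ^ a ∣ mult (fun n : H => (χ : G → ℂ) n) θ :=
        ((Fact.out : p.Prime).pow_dvd_iff_le_factorization h0).mpr (by omega)
      exact mul_dvd_mul h3 h3
  have := ((Fact.out : p.Prime).pow_dvd_iff_le_factorization hr0).mp hdvd
  omega

theorem exists_irr_dvd_of_not_comm {P : Type*} [Group P] [Finite P] (hP : IsPGroup p P)
    (h : ¬ ∀ a c : P, a * c = c * a) : ∃ ξ : IrrCharacter P, p ∣ charDegree (ξ : P → ℂ) := by
  by_contra hcon
  push Not at hcon
  apply h
  have h1 : ∀ ξ : IrrCharacter P, (ξ : P → ℂ) 1 = 1 := by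
    intro ξ
    obtain ⟨k, hk⟩ := IsPGroup.iff_card.mp hP
    have h2 := charDegree_dvd_index_abelian_normal ξ.2 (⊥ : Subgroup P) (by simp)
    rw [Subgroup.index_bot, hk] at h2
    obtain ⟨j, -, hj⟩ := (Nat.dvd_prime_pow Fact.out).mp h2
    have : j = 0 := by
      by_contra hj0
      exact hcon ξ (hj ▸ dvd_pow_self p hj0)
    rw [← charDegree_irr_cast ξ.2, hj, this]; simp
  intro a c
  have h2 : IsConj (a * c * a⁻¹ * c⁻¹) 1 := by
    rw [H3.isConj_iff_irr]
    intro ξ
    obtain ⟨lam, hlam⟩ := H3.IsCharacter_exists_linear (irr_isCharacter ξ) (h1 ξ)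
    rw [hlam]
    simp only [map_mul, map_inv, map_one]
    rw [mul_comm (lam a) (lam c)]; simp
  rw [isConj_one_left] at h2
  calc a * c = a * c * a⁻¹ * c⁻¹ * (c * a) := by group
    _ = c * a := by rw [h2, one_mul]

theorem reynolds [P.Normal] {B : Set (IrrCharacter G)} (hB : IsPBlock M B)
    (hD : IsDefectGroup p M B P) :
    (∀ a ∈ P, ∀ c ∈ P, a * c = c * a) ↔ ∀ χ ∈ B, blockHeight p B (χ : G → ℂ) = 0 := by
  classical
  have hP := defectGroup_isPGroup hD
  have hP0 : P.index ≠ 0 := Subgroup.FiniteIndex.index_ne_zero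
  constructor
  · intro hab χ hχ
    rw [height_zero_iff_index hB hD hχ]
    refine le_antisymm ?_ (index_defectGroup_le_degree hB hD hχ)
    exact (Nat.factorization_le_iff_dvd (charDegree_ne_zero χ) hP0).mpr
      (charDegree_dvd_index_abelian_normal χ.2 P hab) p
  · intro h0
    by_contra hab
    have := Fintype.ofFinite G
    set H := P ⊔ Subgroup.centralizer (P : Set G) with hH
    have : H.Normal := inferInstance
    have := Fintype.ofFinite H
    have hPH : P ≤ H := le_sup_left
    set Q := P.subgroupOf H with hQ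
    have := Fintype.ofFinite Q
    have hQp : IsPGroup p Q := hP.of_equiv (Subgroup.subgroupOfEquivOfLe hPH).symm
    have hQH : Q ⊔ Subgroup.centralizer (Q : Set H) = ⊤ := by
      have h1 : Subgroup.centralizer (Q : Set H) =
          (Subgroup.centralizer (P : Set G)).subgroupOf H := by
        ext x
        rw [mem_centralizer_subgroupOf_iff hPH, Subgroup.mem_subgroupOf]
      rw [h1, hQ, ← Subgroup.subgroupOf_sup hPH le_sup_right, Subgroup.subgroupOf_self]
    obtain ⟨ξ, hξ⟩ := exists_irr_dvd_of_not_comm hQp (by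
      intro h
      apply hab
      intro a ha c hc
      have := h ⟨⟨a, hPH ha⟩, ha⟩ ⟨⟨c, hPH hc⟩, hc⟩
      exact congrArg (fun x : Q => ((x : H) : G)) this)
    obtain ⟨χ₀, hχ₀⟩ := blk_nonempty hB
    obtain ⟨φ₀, hφ₀⟩ := H3.exists_under (N := H) χ₀
    have hind := isInducedBlock_of_under (M := M) hP le_sup_right hφ₀
    rw [← blk_eq_blockOf hB hχ₀] at hind
    set b := blockOf M (φ₀ : H → ℂ) with hb
    have hbb : IsPBlock M b := isPBlock_blockOf φ₀
    have hDb : IsDefectGroup p M b Q := isDefectGroup_of_ind hPH (by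
      rw [Subgroup.normalizer_eq_top]; exact le_top) hind hD
    have hover : ∀ φ ∈ b, ∀ χ : IrrCharacter G,
        classInner (fun n : H => (χ : G → ℂ) n) φ ≠ 0 → χ ∈ B := by
      intro φ hφ χ h
      have h1 := isInducedBlock_of_under (M := M) hP le_sup_right h
      rw [← blk_eq_blockOf hbb hφ] at h1
      rw [ind_unique hind h1]; exact self_mem_blockOf χ
    obtain ⟨θ, hθ, hθP, hθdeg, huniq⟩ := exists_canonical' hQp hQH hbb hDb
    obtain ⟨φ, hφ, hφξ⟩ := exists_over_of_normal_pgroup hQp hbb ξ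
    have hres := canonical_res hQp hQH hbb hDb hθ hθP huniq hφ hφξ
    have hdeg : charDegree (φ : H → ℂ) = charDegree (θ : H → ℂ) * charDegree (ξ : Q → ℂ) := by
      apply charDegree_eq_of_apply_one
      have := congrFun hres 1
      simp only [OneMemClass.coe_one, Pi.smul_apply, smul_eq_mul] at this
      rw [this, Nat.cast_mul, charDegree_irr_cast θ.2, charDegree_irr_cast ξ.2]
    have hH0 : H.index ≠ 0 := Subgroup.FiniteIndex.index_ne_zero
    have hQ0 : Q.index ≠ 0 := Subgroup.FiniteIndex.index_ne_zero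
    have hfac : Q.index.factorization p + H.index.factorization p = P.index.factorization p := by
      have h1 : Q.index * H.index = P.index := Subgroup.relIndex_mul_index hPH
      rw [← h1, Nat.factorization_mul hQ0 hH0]; rfl
    have hT := index_inertia_factorization (p := p) (θ := θ) (fun χ hχ => by
      have := index_defectGroup_le_degree hB hD (hover θ hθ χ hχ)
      omega)
    have hle : inertia (φ : H → ℂ) ≤ inertia (θ : H → ℂ) := by
      intro g hg
      rw [mem_inertia] at hg ⊢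
      have h1 : H3.cjIrr g φ = φ := Subtype.ext hg
      have h2 := H3.sameBlock_cjIrr g (blk_sameBlock hbb hφ hθ)
      rw [h1] at h2
      have h3 := huniq _ (blk_mem_of_sameBlock hbb hφ h2) (fun x hx => by
        rw [H3.coe_cjIrr, cj_apply_one, cj_apply, hθP]
        rw [hQ, Subgroup.mem_subgroupOf] at hx ⊢
        exact (inferInstance : P.Normal).conj_mem _ hx g)
      exact congrArg Subtype.val h3
    obtain ⟨χ, hχ⟩ := H3.exists_over φ
    have hχB := hover φ hφ χ hχ
    have h1 := (height_zero_iff_index hB hD hχB).mp (h0 χ hχB)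
    have hm0 : mult (fun n : H => (χ : G → ℂ) n) φ ≠ 0 := by
      rwa [Ne, mult_eq_zero_iff (H3.IsCharacter_restrict H (irr_isChar χ)) (irr_isChar φ)]
    have hT0 : (inertia (φ : H → ℂ)).index ≠ 0 := Subgroup.FiniteIndex.index_ne_zero
    rw [clifford_degree χ.2 φ.2 hχ, Nat.factorization_mul hm0
        (mul_ne_zero hT0 (charDegree_ne_zero φ)),
        Nat.factorization_mul hT0 (charDegree_ne_zero φ), hdeg,
        Nat.factorization_mul (charDegree_ne_zero θ) (charDegree_ne_zero ξ)] at h1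
    simp only [Finsupp.add_apply] at h1
    have h2 := factorization_index_le_of_le (p := p) hle
    have h3 := (Fact.out : p.Prime).factorization_pos_of_dvd (charDegree_ne_zero ξ) hξ
    omega

end Reynolds

end Cfsg.Agent.H4
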