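import Cfsg.Agent.Lib.H4.CNNorm
import Cfsg.Agent.Lib.H4.Glauberman2

/-!
# Exceptional characters attached to a nilpotent subgroup containing the centralizers of its
non-identity elements
-/

set_option autoImplicit false
set_option linter.unusedSectionVars false

open scoped ComplexConjugate

namespace Cfsg.Agent.H4

open Cfsg Cfsg.Agent

variable {G : Type*} [Group G] [Fintype G]

/-- `f` vanishes at `1` and outside the conjugates of `H`. -/
def SuppOn (H : Subgroup G) (f : G → ℂ) : Prop :=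
  ∀ g, (∀ x : G, x⁻¹ * g * x ∈ H → g = 1) → f g = 0

open Classical in
/-- The sum of the squared absolute values on the non-identity elements of `H`. -/
noncomputable def nsq (H : Subgroup G) (f : G → ℂ) : ℝ :=
  ∑ x ∈ Finset.univ.filter (fun x => x ∈ H ∧ x ≠ 1), ‖f x‖ ^ 2

/-- The character-theoretic data attached to a `CC`-subgroup. -/
structure CCD (H : Subgroup G) (h' e : ℕ) (β : G → ℂ) (J : Finset (G → ℂ)) (X₀ : G → ℂ) :
    Prop where
  dvd : h' ∣ Nat.card H
  card_norm : e * Nat.card H = Nat.card (Subgroup.normalizer (H : Set G))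
  three_le : 3 ≤ e
  card_J : J.card * e + 1 = h'
  two_le : 2 ≤ J.card
  mem : X₀ ∈ J
  irr : ∀ X ∈ J, ∃ χ : IrrCharacter G, X = χ ∨ X = -(χ : G → ℂ)
  orth : ∀ X ∈ J, ∀ Y ∈ J, X ≠ Y → classInner X Y = 0
  conj_mem : ∀ X ∈ J, (fun g => conj (X g)) ∈ J ∧ (fun g => conj (X g)) ≠ X
  supp : ∀ X ∈ J, ∀ Y ∈ J, SuppOn H (X - Y)
  gen : IsGeneralizedCharacter G β
  suppβ : SuppOn H β
  norm : classInner β β = e + 1
  one : classInner β (fun _ => 1) = 1
  real : ∀ g, conj (β g + X₀ g) = β g + X₀ g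
  diff : ∀ X ∈ J, X ≠ X₀ → classInner β (X - X₀) = 1
  low₀ : Nat.card H * ((e : ℝ) - e ^ 2 / h') ≤ nsq H X₀
  low : ∀ χ, IsGeneralizedCharacter G χ → (∀ X ∈ J, ∀ Y ∈ J, classInner χ (X - Y) = 0) →
    classInner χ β ≠ 0 → (Nat.card H : ℝ) - 1 ≤ nsq H χ

theorem cc_TI {H : Subgroup G} (hCC : ∀ x ∈ H, x ≠ 1 → Subgroup.centralizer ({x} : Set G) ≤ H)
    [Group.IsNilpotent H] (g : G) (hg : g ∉ Subgroup.normalizer (H : Set G)) (s : G) (hs : s ∈ H)
    (hgs : g * s * g⁻¹ ∈ H) : s = 1 := by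
  by_contra hs1
  apply hg
  have : Nontrivial H := ⟨⟨⟨s, hs⟩, 1, fun h => hs1 (congrArg Subtype.val h)⟩⟩
  have : Nontrivial (Subgroup.center H) :=
    (Subgroup.nontrivial_iff_ne_bot _).mpr (Group.IsNilpotent.center_ne_bot H)
  obtain ⟨z, hz1⟩ := exists_ne (1 : Subgroup.center H)
  have hz : ∀ x ∈ H, x * (z : H) = (z : H) * x := fun x hx =>
    congrArg Subtype.val (Subgroup.mem_center_iff.mp z.2 ⟨x, hx⟩)
  have hz1' : ((z : H) : G) ≠ 1 := fun h => hz1 (Subtype.ext (Subtype.ext h))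
  have h1 : g⁻¹ * (z : H) * g ∈ H := by
    refine hCC s hs hs1 ?_
    rw [Subgroup.mem_centralizer_singleton_iff]
    have := hz _ hgs
    calc g⁻¹ * (z : H) * g * s = g⁻¹ * ((z : H) * (g * s * g⁻¹)) * g := by group
      _ = g⁻¹ * ((g * s * g⁻¹) * (z : H)) * g := by rw [this]
      _ = _ := by group
  have h2 : g⁻¹ * (z : H) * g ≠ 1 := by
    intro h
    apply hz1'
    calc ((z : H) : G) = g * (g⁻¹ * (z : H) * g) * g⁻¹ := by group
      _ = 1 := by rw [h]; group
  rw [← Subgroup.inv_mem_iff]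
  refine Subgroup.mem_normalizer_fintype fun x hx => ?_
  refine hCC _ h1 h2 ?_
  rw [Subgroup.mem_centralizer_singleton_iff]
  have := hz _ hx
  calc g⁻¹ * x * g⁻¹⁻¹ * (g⁻¹ * (z : H) * g) = g⁻¹ * (x * (z : H)) * g := by group
    _ = g⁻¹ * ((z : H) * x) * g := by rw [this]
    _ = _ := by group

theorem nsq_eq {H L : Subgroup G} (hHL : H ≤ L) [Fintype (H.subgroupOf L)]
    [DecidableEq (H.subgroupOf L)] (f : G → ℂ) :
    nsq H f = ∑ k ∈ Finset.univ.erase (1 : H.subgroupOf L), ‖f ((k : L) : G)‖ ^ 2 := by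
  classical
  unfold nsq
  symm
  refine Finset.sum_bij (fun k _ => ((k : L) : G)) ?_ ?_ ?_ (fun _ _ => rfl)
  · intro k hk
    simp only [Finset.mem_filter, Finset.mem_univ, true_and]
    exact ⟨Subgroup.mem_subgroupOf.mp k.2, fun h => Finset.ne_of_mem_erase hk
      (Subtype.ext (Subtype.ext h))⟩
  · intro k _ k' _ h
    exact Subtype.ext (Subtype.ext h)
  · intro x hx
    simp only [Finset.mem_filter, Finset.mem_univ, true_and] at hx
    refine ⟨⟨⟨x, hHL hx.1⟩, Subgroup.mem_subgroupOf.mpr hx.1⟩, ?_, rfl⟩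
    simp only [Finset.mem_erase, Finset.mem_univ, and_true]
    exact fun h => hx.2 (congrArg (fun k : H.subgroupOf L => ((k : L) : G)) h)

theorem exists_ccd (hodd : Odd (Nat.card G)) {H : Subgroup G}
    (hCC : ∀ x ∈ H, x ≠ 1 → Subgroup.centralizer ({x} : Set G) ≤ H) [Group.IsNilpotent H]
    (hne : H ≠ ⊥) (hN : Subgroup.normalizer (H : Set G) ≠ H) :
    ∃ h' e β J X₀, CCD H h' e β J X₀ := by
  classical
  set L := Subgroup.normalizer (H : Set G) with hL
  have hHL : H ≤ L := Subgroup.le_normalizer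
  set K := H.subgroupOf L with hK
  have hKn : K.Normal := Subgroup.normal_in_normalizer
  have hTI := cc_TI hCC
  have eK : K ≃* H := Subgroup.subgroupOfEquivOfLe hHL
  have hcardK : Nat.card K = Nat.card H := Nat.card_congr eK.toEquiv
  have : Group.IsNilpotent K := Group.nilpotent_of_mulEquiv eK.symm
  have hoddL : Odd (Nat.card L) := hodd.of_dvd_nat L.card_subgroup_dvd_card
  have hoddK : Odd (Nat.card K) := hoddL.of_dvd_nat K.card_subgroup_dvd_card
  have hc : ∀ x ∈ K, x ≠ 1 → Subgroup.centralizer ({x} : Set L) ≤ K := by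
    intro x hx hx1 y hy
    rw [Subgroup.mem_centralizer_singleton_iff] at hy
    refine hCC x hx (fun h => hx1 (Subtype.ext h)) ?_
    rw [Subgroup.mem_centralizer_singleton_iff]
    exact congrArg Subtype.val hy
  set e := K.index with he
  have he1 : e ≠ 1 := by
    intro h
    rw [he, Subgroup.index_eq_one, hK, Subgroup.subgroupOf_eq_top] at h
    exact hN (le_antisymm h hHL)
  have he3 : 3 ≤ e := by
    obtain ⟨k, hk⟩ := hoddL.of_dvd_nat K.index_dvd_card
    omega
  set Λ : Finset (IrrCharacter K) :=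
    Finset.univ.filter (fun θ => (θ : K → ℂ) 1 = 1 ∧ θ ≠ H3.trivChar K) with hΛ
  have hmemΛ : ∀ θ, θ ∈ Λ ↔ (θ : K → ℂ) 1 = 1 ∧ θ ≠ H3.trivChar K := by simp [hΛ]
  have hcardΛ : Λ.card + 1 = (commutator K).index := by
    rw [← H3.card_linear_irr, Nat.card_eq_fintype_card, Fintype.card_subtype,
      ← Finset.card_insert_of_notMem (a := H3.trivChar K) (by simp [hΛ])]
    congr 1
    ext θ
    by_cases h : θ = H3.trivChar K <;> simp [hΛ, h]
  have hne1 : ∀ θ ∈ Λ, (θ : K → ℂ) ≠ fun _ => 1 := fun θ hθ h =>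
    ((hmemΛ θ).mp hθ).2 (Subtype.ext h)
  have hΛne : Λ.Nonempty := by
    rw [← Finset.card_pos]
    by_contra h0
    have h1 : (commutator K).index = 1 := by omega
    rw [Subgroup.index_eq_one] at h1
    have : Nontrivial K := by
      rw [← Finite.one_lt_card_iff_nontrivial, hcardK, Finite.one_lt_card_iff_nontrivial]
      exact (Subgroup.nontrivial_iff_ne_bot H).mpr hne
    exact (Group.IsSolvable.commutator_lt_top_of_nontrivial K).ne h1
  obtain ⟨θ₀, hθ₀⟩ := hΛne
  set ζ : IrrCharacter K → L → ℂ := fun θ => indFun K θ with hζ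
  have hζirr : ∀ θ ∈ Λ, IsIrrCharacter L (ζ θ) := fun θ hθ =>
    isIrr_indFun_of_centralizer_le hc θ.2 (hne1 θ hθ)
  have hinert : ∀ θ ∈ Λ, inertia (θ : K → ℂ) = K := fun θ hθ =>
    le_antisymm (inertia_le_of_centralizer_le hc θ.2 (hne1 θ hθ))
      (le_inertia (H3.IsIrrCharacter_isClassFunction θ.2))
  have hfib : ∀ θ ∈ Λ, (Λ.filter (fun φ => ζ φ = ζ θ)).card = e := by
    intro θ hθ
    have hself : ∀ φ ∈ Λ, ζ φ = ζ θ → classInner (fun k : K => ζ θ k) φ ≠ 0 := by
      intro φ hφ h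
      rw [← frobenius_reciprocity' K _ (H3.IsIrrCharacter_isClassFunction (hζirr θ hθ))]
      change classInner (ζ θ) (ζ φ) ≠ 0
      rw [h, H3.IsIrrCharacter_classInner_self (hζirr θ hθ)]; exact one_ne_zero
    have h1 := card_const_eq_index_inertia (hζirr θ hθ) θ.2 (hself θ hθ rfl)
    rw [hinert θ hθ, Nat.card_eq_fintype_card, Fintype.card_subtype] at h1
    rw [he, ← h1]
    congr 1
    ext φ
    simp only [Finset.mem_filter, Finset.mem_univ, true_and]
    refine ⟨fun h => hself φ h.1 h.2, fun h => ?_⟩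
    obtain ⟨g, hg⟩ := exists_cj_of_const (hζirr θ hθ) θ.2 φ.2 (hself θ hθ rfl) h
    refine ⟨(hmemΛ φ).mpr ⟨?_, fun h => hne1 θ hθ ?_⟩, ?_⟩
    · rw [← hg, cj_apply_one]; exact ((hmemΛ θ).mp hθ).1
    · rw [← cj_cj_inv g (θ : K → ℂ), hg, h]; rfl
    · simp only [hζ]; rw [← hg, indFun_cj]
  set I := Λ.image ζ with hI
  have hcardI : I.card * e = Λ.card := by
    rw [Finset.card_eq_sum_card_image ζ Λ, ← hI, Finset.sum_congr rfl (g := fun _ => e)]
    · simp
    · intro z hz
      obtain ⟨θ, hθ, rfl⟩ := Finset.mem_image.mp hz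
      exact hfib θ hθ
  have hmemI : ∀ θ ∈ Λ, ζ θ ∈ I := fun θ hθ => Finset.mem_image_of_mem ζ hθ
  have : Nonempty I := ⟨⟨_, hmemI θ₀ hθ₀⟩⟩
  have hIirr : ∀ i : I, IsIrrCharacter L i.1 := by
    intro i
    obtain ⟨θ, hθ, h⟩ := Finset.mem_image.mp i.2
    rw [← h]; exact hζirr θ hθ
  obtain ⟨ε, hε, Θ, hΘirr, hΘinj, hΘ⟩ := exceptional_characters L (H : Set G) hTI
    (fun i : I => i.1) hIirr Subtype.val_injective (by
      intro i j x hx
      obtain ⟨θ, hθ, h⟩ := Finset.mem_image.mp i.2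
      obtain ⟨φ, hφ, h'⟩ := Finset.mem_image.mp j.2
      rw [← h, ← h']
      simp only [hζ]
      rw [indFun_normal_of_notMem K _ (show x ∉ K from hx),
        indFun_normal_of_notMem K _ (show x ∉ K from hx)]) (by
      intro i j
      obtain ⟨θ, hθ, h⟩ := Finset.mem_image.mp i.2
      obtain ⟨φ, hφ, h'⟩ := Finset.mem_image.mp j.2
      rw [← h, ← h']
      simp only [hζ]
      rw [indFun_one, indFun_one, ((hmemΛ θ).mp hθ).1, ((hmemΛ φ).mp hφ).1])
  have hε0 : ε ≠ 0 := by rcases hε with h | h <;> simp [h]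
  have hεc : conj ε = ε := by rcases hε with h | h <;> simp [h]
  have hεε : ε * ε = 1 := by rcases hε with h | h <;> simp [h]
  set X : I → G → ℂ := fun i => ε • Θ i with hX
  have hXinj : Function.Injective X := fun i j h => hΘinj (smul_right_injective _ hε0 h)
  have hXgen : ∀ i, IsGeneralizedCharacter G (X i) := by
    intro i
    have := isGen_of_isCharacter (H3.IsIrrCharacter_isCharacter (hΘirr i))
    rcases hε with h | h
    · simpa [hX, h] using this
    · simpa [hX, h] using isGen_neg this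
  have hXX : ∀ i j, classInner (X i) (X j) = if i = j then 1 else 0 := by
    intro i j
    simp only [hX]
    rw [classInner_smul_left, classInner_smul_right, hεc, ← mul_assoc, hεε, one_mul]
    split_ifs with h
    · rw [h, H3.IsIrrCharacter_classInner_self (hΘirr j)]
    · exact H3.IsIrrCharacter_classInner_of_ne (hΘirr i) (hΘirr j) fun h' => h (hΘinj h')
  set Ind : (K → ℂ) → G → ℂ := fun θ => indFun L (indFun K θ) with hInd
  have hIndsub : ∀ a b, Ind (a - b) = Ind a - Ind b := by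
    intro a b; simp only [hInd]; rw [indFun_sub, indFun_sub]
  have hIndconj : ∀ a, Ind (fun k => conj (a k)) = fun g => conj (Ind a g) := by
    intro a; simp only [hInd]; rw [indFun_conj, indFun_conj]
  have hrec : ∀ (χ : G → ℂ), IsClassFunction G χ → ∀ a : K → ℂ,
      classInner χ (Ind a) = classInner (fun k : K => χ ((k : L) : G)) a := by
    intro χ hχ a
    simp only [hInd]
    rw [frobenius_reciprocity' L _ hχ,
      frobenius_reciprocity' K _ (H3.IsClassFunction_restrict L hχ)]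
  have hsupp : ∀ a : K → ℂ, a 1 = 0 → SuppOn H (Ind a) := by
    intro a ha g hg
    refine indFun_eq_zero_of_forall L _ fun x hx => ?_
    by_cases h : x⁻¹ * g * x ∈ H
    · have h1 := hg x h
      have h2 : (⟨x⁻¹ * g * x, hx⟩ : L) = 1 := by
        apply Subtype.ext; simp [h1]
      rw [h2, indFun_one, ha, mul_zero]
    · exact indFun_normal_of_notMem K _ h
  have hkey : ∀ θ (hθ : θ ∈ Λ) φ (hφ : φ ∈ Λ),
      Ind ((θ : K → ℂ) - φ) = X ⟨_, hmemI θ hθ⟩ - X ⟨_, hmemI φ hφ⟩ := by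
    intro θ hθ φ hφ
    rw [hIndsub]
    simp only [hX, ← smul_sub]
    exact hΘ ⟨_, hmemI θ hθ⟩ ⟨_, hmemI φ hφ⟩
  have hsurj : ∀ i : I, ∃ θ, ∃ hθ : θ ∈ Λ, i = ⟨_, hmemI θ hθ⟩ := by
    intro i
    obtain ⟨θ, hθ, h⟩ := Finset.mem_image.mp i.2
    exact ⟨θ, hθ, Subtype.ext h.symm⟩
  have hconjΛ : ∀ θ ∈ Λ, H3.conjIrr θ ∈ Λ := by
    intro θ hθ
    refine (hmemΛ _).mpr ⟨by simp [((hmemΛ θ).mp hθ).1], fun h => ((hmemΛ θ).mp hθ).2 ?_⟩
    rw [← H3.conjIrr_conjIrr θ, h]
    ext k; simp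
  have hconjne : ∀ θ (hθ : θ ∈ Λ),
      (⟨_, hmemI _ (hconjΛ θ hθ)⟩ : I) ≠ ⟨_, hmemI θ hθ⟩ := by
    intro θ hθ h
    have h1 : ζ (H3.conjIrr θ) = ζ θ := congrArg Subtype.val h
    have h2 := classInner_conj_indFun_of_odd hoddL K θ.2 (hne1 θ hθ)
    rw [← indFun_conj] at h2
    change classInner (ζ (H3.conjIrr θ)) (ζ θ) = 0 at h2
    rw [h1, H3.IsIrrCharacter_classInner_self (hζirr θ hθ)] at h2
    exact one_ne_zero h2
  have hconjX : ∀ θ (hθ : θ ∈ Λ), (fun g => conj (X ⟨_, hmemI θ hθ⟩ g)) =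
      X ⟨_, hmemI _ (hconjΛ θ hθ)⟩ := by
    intro θ hθ
    set i : I := ⟨_, hmemI θ hθ⟩
    set j : I := ⟨_, hmemI _ (hconjΛ θ hθ)⟩
    have h1 : Ind ((H3.conjIrr θ : K → ℂ) - θ) = X j - X i := hkey _ (hconjΛ θ hθ) _ hθ
    have h2 : Ind ((θ : K → ℂ) - H3.conjIrr θ) = X i - X j := hkey _ hθ _ (hconjΛ θ hθ)
    have h3 : ((H3.conjIrr θ : K → ℂ) - θ) =
        fun k => conj (((θ : K → ℂ) - (H3.conjIrr θ : K → ℂ)) k) := by
      ext k; simp
    rw [h3, hIndconj, h2] at h1
    have h4 : (fun g => conj (Θ i g)) - (fun g => conj (Θ j g)) = Θ j - Θ i := by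
      apply smul_right_injective _ hε0
      ext g
      have := congrFun h1 g
      simp only [hX, Pi.sub_apply, Pi.smul_apply, smul_eq_mul, map_sub, map_mul, hεc] at this ⊢
      linear_combination this
    have h5 : (fun g => conj (Θ i g)) = Θ j := by
      by_contra hne
      have h6 := congrArg (fun f => classInner f (Θ j)) h4
      simp only [classInner_sub_left] at h6
      rw [H3.IsIrrCharacter_classInner_of_ne (isIrr_conj (hΘirr i)) (hΘirr j) hne,
        H3.IsIrrCharacter_classInner_self (hΘirr j), H3.IsIrrCharacter_classInner_of_ne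
          (hΘirr i) (hΘirr j) (fun h => hconjne θ hθ (hΘinj h).symm)] at h6
      obtain ⟨n, hn⟩ := H3.IsCharacter_classInner
        (H3.IsIrrCharacter_isCharacter (isIrr_conj (hΘirr j)))
        (H3.IsIrrCharacter_isCharacter (hΘirr j))
      rw [hn] at h6
      have h7 : ((n + 1 : ℕ) : ℂ) = 0 := by push_cast; linear_combination -h6
      exact Nat.succ_ne_zero n (Nat.cast_eq_zero.mp h7)
    simp only [hX]
    rw [← h5]
    ext g; simp [hεc]
  set J := Finset.univ.image X with hJ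
  have hJmem : ∀ Y ∈ J, ∃ θ, ∃ hθ : θ ∈ Λ, Y = X ⟨_, hmemI θ hθ⟩ := by
    intro Y hY
    obtain ⟨i, -, rfl⟩ := Finset.mem_image.mp hY
    obtain ⟨θ, hθ, rfl⟩ := hsurj i
    exact ⟨θ, hθ, rfl⟩
  have hXJ : ∀ i, X i ∈ J := fun i => Finset.mem_image_of_mem X (Finset.mem_univ i)
  have hcardJ : J.card = I.card := by
    rw [hJ, Finset.card_image_of_injective _ hXinj]; simp
  have hJ2 : 2 ≤ J.card := Finset.one_lt_card.mpr
    ⟨_, hXJ _, _, hXJ _, fun h => hconjne θ₀ hθ₀ (hXinj h)⟩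
  set i₀ : I := ⟨_, hmemI θ₀ hθ₀⟩ with hi₀
  set b₀ : K → ℂ := (fun _ => 1) - (θ₀ : K → ℂ) with hb₀
  have hb₀1 : b₀ 1 = 0 := by simp [hb₀, ((hmemΛ θ₀).mp hθ₀).1]
  have hisom : ∀ a b : K → ℂ, a 1 = 0 →
      classInner (Ind a) (Ind b) = classInner (indFun K a) (indFun K b) := by
    intro a b ha
    refine classInner_indFun_TI L (H : Set G) hTI (indFun_isClassFunction K b) ?_ ?_ ?_
    · exact fun x hx => indFun_normal_of_notMem K _ hx
    · exact fun x hx => indFun_normal_of_notMem K _ hx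
    · rw [indFun_one, ha, mul_zero]
  have h1ζ : ∀ θ ∈ Λ, classInner (indFun K (fun _ => (1 : ℂ))) (ζ θ) = 0 := by
    intro θ hθ
    refine classInner_ind_irr_eq_zero H3.isIrrCharacter_one θ.2 fun g h => hne1 θ hθ ?_
    rw [← cj_cj_inv g (θ : K → ℂ), h]; rfl
  have hζζ : ∀ θ (hθ : θ ∈ Λ) φ (hφ : φ ∈ Λ), classInner (ζ θ) (ζ φ) =
      if (⟨_, hmemI θ hθ⟩ : I) = ⟨_, hmemI φ hφ⟩ then 1 else 0 := by
    intro θ hθ φ hφ
    split_ifs with h
    · rw [show ζ θ = ζ φ from congrArg Subtype.val h,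
        H3.IsIrrCharacter_classInner_self (hζirr φ hφ)]
    · exact H3.IsIrrCharacter_classInner_of_ne (hζirr θ hθ) (hζirr φ hφ)
        fun h' => h (Subtype.ext h')
  have hresgen : ∀ χ, IsGeneralizedCharacter G χ →
      IsGeneralizedCharacter K (fun k : K => χ ((k : L) : G)) := fun χ hχ =>
    isGen_comp (L.subtype.comp K.subtype) hχ
  refine ⟨(commutator K).index, e, Ind b₀, J, X i₀, ?_, ?_, he3, ?_, hJ2, hXJ _, ?_, ?_, ?_, ?_,
    ?_, hsupp _ hb₀1, ?_, ?_, ?_, ?_, ?_, ?_⟩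
  · rw [← hcardK]; exact Subgroup.index_dvd_card _
  · rw [← hcardK, he, mul_comm, K.card_mul_index]
  · rw [hcardJ, hcardI, hcardΛ]
  · intro Y hY
    obtain ⟨i, -, rfl⟩ := Finset.mem_image.mp hY
    refine ⟨⟨Θ i, hΘirr i⟩, ?_⟩
    rcases hε with h | h
    · left; simp [hX, h]
    · right; simp [hX, h]
  · intro Y hY Z hZ hYZ
    obtain ⟨i, -, rfl⟩ := Finset.mem_image.mp hY
    obtain ⟨j, -, rfl⟩ := Finset.mem_image.mp hZ
    rw [hXX, if_neg fun h => hYZ (by rw [h])]
  · intro Y hY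
    obtain ⟨θ, hθ, rfl⟩ := hJmem Y hY
    rw [hconjX θ hθ]
    exact ⟨hXJ _, fun h => hconjne θ hθ (hXinj h)⟩
  · intro Y hY Z hZ
    obtain ⟨θ, hθ, rfl⟩ := hJmem Y hY
    obtain ⟨φ, hφ, rfl⟩ := hJmem Z hZ
    rw [← hkey θ hθ φ hφ]
    exact hsupp _ (by simp [((hmemΛ θ).mp hθ).1, ((hmemΛ φ).mp hφ).1])
  · exact isGeneralizedCharacter_indFun L (isGeneralizedCharacter_indFun K
      (isGen_sub H3.isGeneralized_one (isGen_of_isCharacter (irr_isChar θ₀))))
  · rw [hisom _ _ hb₀1, hb₀, indFun_sub, classInner_sub_left, classInner_sub_right,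
      classInner_sub_right]
    have h1 := card_mul_norm_ind_irr (G := L) (N := K) H3.isIrrCharacter_one
    have h2 : inertia (G := L) (N := K) (fun _ => (1 : ℂ)) = ⊤ := by
      rw [eq_top_iff]; intro g _; rw [mem_inertia]; rfl
    rw [h2, Subgroup.card_top, ← K.card_mul_index, Nat.cast_mul] at h1
    rw [mul_left_cancel₀ (H3.card_ne_zero_complex K) h1]
    have h3 := h1ζ θ₀ hθ₀
    have h4 := (classInner_eq_zero_comm _ _).mp h3
    have h5 := H3.IsIrrCharacter_classInner_self (hζirr θ₀ hθ₀)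
    simp only [hζ] at h3 h4 h5
    rw [h3, h4, h5]; ring
  · rw [← classInner_conj_symm, hrec _ (H3.IsClassFunction_const 1), hb₀, classInner_sub_right,
      H3.IsIrrCharacter_classInner_self H3.isIrrCharacter_one,
      H3.IsIrrCharacter_classInner_of_ne H3.isIrrCharacter_one θ₀.2 (hne1 θ₀ hθ₀).symm]
    simp
  · intro g
    have h1 := congrFun (hconjX θ₀ hθ₀) g
    have h2 := congrFun (hIndconj b₀) g
    have h3 := congrFun (hkey _ (hconjΛ θ₀ hθ₀) _ hθ₀) g
    have h4 : (fun k => conj (b₀ k)) = b₀ - ((H3.conjIrr θ₀ : K → ℂ) - θ₀) := by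
      ext k; simp [hb₀]
    rw [h4, hIndsub] at h2
    simp only [Pi.sub_apply] at h1 h2 h3
    rw [map_add, ← h2, h1, h3]; ring
  · intro Y hY hne
    obtain ⟨θ, hθ, rfl⟩ := hJmem Y hY
    rw [hi₀, ← hkey θ hθ θ₀ hθ₀, hisom _ _ hb₀1, hb₀, indFun_sub, indFun_sub, classInner_sub_left,
      classInner_sub_right, classInner_sub_right]
    have h1 := h1ζ θ hθ
    have h2 := h1ζ θ₀ hθ₀
    have h3 := hζζ θ₀ hθ₀ θ hθ
    have h4 := hζζ θ₀ hθ₀ θ₀ hθ₀
    rw [if_neg (fun h => hne (by rw [← h]))] at h3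
    rw [if_pos rfl] at h4
    simp only [hζ] at h1 h2 h3 h4
    rw [h1, h2, h3, h4]; ring
  · rw [nsq_eq hHL, ← hcardK, ← hcardΛ]
    have hψ := hresgen _ (hXgen i₀)
    have h1 : ∀ θ (hθ : θ ∈ Λ), zmult (fun k : K => X i₀ ((k : L) : G)) θ -
        zmult (fun k : K => X i₀ ((k : L) : G)) θ₀ = if ζ θ = ζ θ₀ then 0 else -1 := by
      intro θ hθ
      have h2 := hrec _ (isGen_isClassFunction (hXgen i₀)) ((θ : K → ℂ) - θ₀)
      rw [hkey θ hθ θ₀ hθ₀, classInner_sub_right, classInner_sub_right, hXX, hXX, if_pos rfl,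
        ← zmult_cast_irr hψ, ← zmult_cast_irr hψ] at h2
      split_ifs with h
      · rw [if_pos (Subtype.ext h.symm)] at h2
        exact_mod_cast (by linear_combination -h2 : ((zmult (fun k : K => X i₀ ((k : L) : G)) θ :
          ℂ)) - zmult (fun k : K => X i₀ ((k : L) : G)) θ₀ = 0)
      · rw [if_neg (fun h' => h (congrArg Subtype.val h').symm)] at h2
        exact_mod_cast (by linear_combination -h2 : ((zmult (fun k : K => X i₀ ((k : L) : G)) θ :
          ℂ)) - zmult (fun k : K => X i₀ ((k : L) : G)) θ₀ = -1)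
    have h2 := norm_bound_exc hψ Λ (Λ.filter fun φ => ζ φ = ζ θ₀) (Finset.filter_subset _ _)
      (fun θ hθ => ((hmemΛ θ).mp hθ).1) (by simp [hΛ])
      (zmult (fun k : K => X i₀ ((k : L) : G)) θ₀ - 1) (fun θ hθ => by
        have := h1 θ (Finset.mem_filter.mp hθ).1
        rw [if_pos (Finset.mem_filter.mp hθ).2] at this; omega) (fun θ hθ h => by
        have := h1 θ hθ
        rw [if_neg (fun h' => h (Finset.mem_filter.mpr ⟨hθ, h'⟩))] at this; omega) (by
        rw [hfib θ₀ hθ₀, ← hcardI, ← hcardJ]; exact Nat.mul_le_mul_right _ hJ2)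
    rw [hfib θ₀ hθ₀] at h2
    push_cast
    exact h2
  · intro χ hχ h1 h2
    rw [nsq_eq hHL, ← hcardK]
    have hψ := hresgen _ hχ
    refine norm_bound_nilpotent hoddK hψ (zmult (fun k : K => χ ((k : L) : G)) θ₀) ?_ ?_
    · intro θ hθ1 hθ
      have hθ' := (hmemΛ θ).mpr ⟨hθ, hθ1⟩
      have h3 := hrec _ (isGen_isClassFunction hχ) ((θ : K → ℂ) - θ₀)
      rw [hkey θ hθ' θ₀ hθ₀, h1 _ (hXJ _) _ (hXJ _), classInner_sub_right,
        ← zmult_cast_irr hψ, ← zmult_cast_irr hψ] at h3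
      exact_mod_cast (sub_eq_zero.mp h3.symm)
    · intro h
      apply h2
      rw [hrec _ (isGen_isClassFunction hχ), hb₀, classInner_sub_right, ← zmult_cast_irr hψ, ← h,
        zmult_cast_irr hψ, sub_eq_zero]
      rfl

theorem even_classInner_of_real (hodd : Odd (Nat.card G)) {a b : G → ℂ}
    (ha : IsGeneralizedCharacter G a) (hb : IsGeneralizedCharacter G b)
    (ha' : ∀ g, conj (a g) = a g) (hb' : ∀ g, conj (b g) = b g)
    (h1 : classInner a (fun _ => 1) = 0) : ∃ n : ℤ, classInner a b = 2 * n := by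
  classical
  have hconj : ∀ c : G → ℂ, IsGeneralizedCharacter G c → (∀ g, conj (c g) = c g) →
      ∀ χ : IrrCharacter G, zmult c (H3.conjIrr χ) = zmult c χ := by
    intro c hc hc' χ
    have h2 := classInner_conj_conj c χ
    simp only [hc'] at h2
    rw [← zmult_cast_irr hc χ, map_intCast] at h2
    have h3 := zmult_cast_irr hc (H3.conjIrr χ)
    exact_mod_cast h3.trans h2
  have h2 : ((∑ χ : IrrCharacter G, zmult a χ * zmult b χ : ℤ) : ZMod 2) = 0 := by
    push_cast
    refine Finset.sum_involution (fun χ _ => H3.conjIrr χ) ?_ ?_ (fun _ _ => Finset.mem_univ _)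
      (fun χ _ => H3.conjIrr_conjIrr χ)
    · intro χ _
      rw [hconj a ha ha', hconj b hb hb']
      exact CharTwo.add_self_eq_zero _
    · intro χ _ h
      refine H3.conjIrr_ne_of_odd hodd χ fun h' => h ?_
      have h3 := zmult_cast_irr ha χ
      rw [h', H3.trivChar_coe, h1] at h3
      rw [h', H3.trivChar_coe, Int.cast_eq_zero.mp h3]; simp
  obtain ⟨n, hn⟩ := (ZMod.intCast_zmod_eq_zero_iff_dvd _ 2).mp h2
  exact ⟨n, by rw [classInner_eq_sum_zmult ha hb, hn]; push_cast; ring⟩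

theorem signed_norm {X : G → ℂ} (h : ∃ χ : IrrCharacter G, X = χ ∨ X = -(χ : G → ℂ)) :
    classInner X X = 1 := by
  obtain ⟨χ, rfl | rfl⟩ := h
  · exact H3.IsIrrCharacter_classInner_self χ.2
  · rw [classInner_neg_left, classInner_neg_right, neg_neg]
    exact H3.IsIrrCharacter_classInner_self χ.2

theorem signed_gen {X : G → ℂ} (h : ∃ χ : IrrCharacter G, X = χ ∨ X = -(χ : G → ℂ)) :
    IsGeneralizedCharacter G X := by
  obtain ⟨χ, rfl | rfl⟩ := h
  · exact isGen_of_isCharacter (irr_isChar χ)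
  · exact isGen_neg (isGen_of_isCharacter (irr_isChar χ))

theorem signed_eq_of_ne_zero {X Y : G → ℂ} (hX : ∃ χ : IrrCharacter G, X = χ ∨ X = -(χ : G → ℂ))
    (hY : ∃ χ : IrrCharacter G, Y = χ ∨ Y = -(χ : G → ℂ)) (h : classInner X Y ≠ 0) :
    X = Y ∨ X = -Y := by
  obtain ⟨χ, hχ⟩ := hX
  obtain ⟨ψ, hψ⟩ := hY
  have h1 : χ = ψ := by
    by_contra hne
    have h2 := H3.IsIrrCharacter_classInner_of_ne χ.2 ψ.2 fun h => hne (Subtype.ext h)
    apply h
    rcases hχ with rfl | rfl <;> rcases hψ with rfl | rfl <;>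
      simp [classInner_neg_left, classInner_neg_right, h2]
  subst h1
  rcases hχ with rfl | rfl <;> rcases hψ with rfl | rfl <;> simp

theorem card_le_norm_of_signed {β : G → ℂ} (hβ : IsGeneralizedCharacter G β) {n : ℕ}
    (hn : classInner β β = n) (F : Finset (G → ℂ))
    (hF : ∀ X ∈ F, ∃ χ : IrrCharacter G, X = χ ∨ X = -(χ : G → ℂ))
    (horth : ∀ X ∈ F, ∀ Y ∈ F, X ≠ Y → classInner X Y = 0)
    (hne : ∀ X ∈ F, classInner β X ≠ 0) : F.card ≤ n := by
  classical
  choose! c hc using hF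
  have hinj : Set.InjOn c F := by
    intro X hX Y hY h
    by_contra hXY
    have h1 := horth X hX Y hY hXY
    have h2 := H3.IsIrrCharacter_classInner_self (c Y).2
    rcases hc X hX with h3 | h3 <;> rcases hc Y hY with h4 | h4 <;>
      rw [h3, h4, h] at h1 <;> simp [classInner_neg_left, classInner_neg_right, h2] at h1
  rw [← Finset.card_image_of_injOn hinj]
  rw [classInner_eq_sum_zmult hβ hβ] at hn
  have h1 : ∑ χ : IrrCharacter G, zmult β χ * zmult β χ = n := by exact_mod_cast hn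
  have h2 : ((F.image c).card : ℤ) ≤ ∑ χ ∈ F.image c, zmult β χ * zmult β χ := by
    rw [Finset.card_eq_sum_ones]
    push_cast
    refine Finset.sum_le_sum fun χ hχ => ?_
    obtain ⟨X, hX, rfl⟩ := Finset.mem_image.mp hχ
    have h3 : zmult β (c X) ≠ 0 := by
      intro h
      apply hne X hX
      have h4 := zmult_cast_irr hβ (c X)
      rw [h] at h4
      rcases hc X hX with h3 | h3
      · rw [h3, ← h4]; simp
      · rw [h3, classInner_neg_right, ← h4]; simp
    have := Int.one_le_abs h3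
    nlinarith [sq_abs (zmult β (c X))]
  have h3 : ∑ χ ∈ F.image c, zmult β χ * zmult β χ ≤
      ∑ χ : IrrCharacter G, zmult β χ * zmult β χ :=
    Finset.sum_le_sum_of_subset_of_nonneg (Finset.subset_univ _) fun _ _ _ => mul_self_nonneg _
  omega

theorem eq_zero_or_of_suppOn {H K : Subgroup G} (hcop : (Nat.card H).Coprime (Nat.card K))
    {a b : G → ℂ} (ha : SuppOn H a) (hb : SuppOn K b) (g : G) : a g = 0 ∨ b g = 0 := by
  by_contra hcon
  push Not at hcon
  have h1 : ¬ ∀ x : G, x⁻¹ * g * x ∈ H → g = 1 := fun h => hcon.1 (ha g h)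
  have h2 : ¬ ∀ x : G, x⁻¹ * g * x ∈ K → g = 1 := fun h => hcon.2 (hb g h)
  push Not at h1 h2
  obtain ⟨x, hx, hg⟩ := h1
  obtain ⟨y, hy, -⟩ := h2
  have h3 : ∀ x : G, orderOf (x⁻¹ * g * x) = orderOf g := fun x => by
    simpa using H5.orderOf_conj' g x⁻¹
  have h4 := Subgroup.orderOf_dvd_natCard H hx
  have h5 := Subgroup.orderOf_dvd_natCard K hy
  rw [h3] at h4 h5
  exact hg (orderOf_eq_one_iff.mp (Nat.eq_one_of_dvd_coprimes hcop h4 h5))

theorem classInner_eq_zero_of_suppOn {H K : Subgroup G} (hcop : (Nat.card H).Coprime (Nat.card K))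
    {a b : G → ℂ} (ha : SuppOn H a) (hb : SuppOn K b) : classInner a b = 0 := by
  unfold classInner
  rw [Finset.sum_eq_zero, mul_zero]
  intro g _
  rcases eq_zero_or_of_suppOn hcop ha hb g with h | h <;> simp [h]

theorem CCD.orth_one {H : Subgroup G} {h' e : ℕ} {β : G → ℂ} {J : Finset (G → ℂ)} {X₀ : G → ℂ}
    (D : CCD H h' e β J X₀) {X : G → ℂ} (hX : X ∈ J) : classInner X (fun _ => 1) = 0 := by
  by_contra h
  apply (D.conj_mem X hX).2
  rcases signed_eq_of_ne_zero (D.irr X hX) ⟨H3.trivChar G, Or.inl rfl⟩ h with h | h <;>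
    rw [h] <;> ext g <;> simp

theorem CCD.orth_orth {H K : Subgroup G} {h' e h₁ e₁ : ℕ} {β β₁ : G → ℂ} {J J₁ : Finset (G → ℂ)}
    {X₀ X₁ : G → ℂ} (D : CCD H h' e β J X₀) (D₁ : CCD K h₁ e₁ β₁ J₁ X₁)
    (hcop : (Nat.card H).Coprime (Nat.card K)) {X Y : G → ℂ} (hX : X ∈ J) (hY : Y ∈ J₁) :
    classInner X Y = 0 := by
  by_contra h
  apply (D.conj_mem X hX).2
  have h1 := D.supp X hX _ (D.conj_mem X hX).1
  have h2 := D₁.supp Y hY _ (D₁.conj_mem Y hY).1
  ext g
  have h3 := eq_zero_or_of_suppOn hcop h1 h2 g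
  simp only [Pi.sub_apply] at h3
  rcases signed_eq_of_ne_zero (D.irr X hX) (D₁.irr Y hY) h with h | h
  · subst h
    rcases h3 with h3 | h3 <;> linear_combination -h3
  · subst h
    simp only [Pi.neg_apply, map_neg] at h3 ⊢
    rcases h3 with h3 | h3
    · linear_combination -h3
    · linear_combination h3

theorem CCD.parity (hodd : Odd (Nat.card G)) {H K : Subgroup G} {h' e h₁ e₁ : ℕ} {β β₁ : G → ℂ}
    {J J₁ : Finset (G → ℂ)} {X₀ X₁ : G → ℂ} (D : CCD H h' e β J X₀) (D₁ : CCD K h₁ e₁ β₁ J₁ X₁)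
    (hcop : (Nat.card H).Coprime (Nat.card K)) (h : classInner X₀ β₁ = 0) :
    classInner β X₁ ≠ 0 := by
  intro h2
  have g0 := signed_gen (D.irr _ D.mem)
  have g1 := signed_gen (D₁.irr _ D₁.mem)
  have h11 : classInner (fun _ : G => (1 : ℂ)) (fun _ => 1) = 1 :=
    H3.IsIrrCharacter_classInner_self H3.isIrrCharacter_one
  obtain ⟨n, hn⟩ := even_classInner_of_real hodd (a := β + X₀ - fun _ => 1) (b := β₁ + X₁)
    (isGen_sub (isGen_add D.gen g0) H3.isGeneralized_one) (isGen_add D₁.gen g1)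
    (fun g => by simp only [Pi.sub_apply, Pi.add_apply, map_sub, D.real g, map_one])
    (fun g => D₁.real g)
    (by rw [classInner_sub_left, classInner_add_left, D.one, D.orth_one D.mem, h11]; ring)
  have h3 : classInner (fun _ : G => (1 : ℂ)) β₁ = 1 := by
    rw [← classInner_conj_symm, D₁.one, map_one]
  rw [classInner_sub_left, classInner_add_left, classInner_add_right, classInner_add_right,
    classInner_add_right, classInner_eq_zero_of_suppOn hcop D.suppβ D₁.suppβ, h, h2,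
    D.orth_orth D₁ hcop D.mem D₁.mem, h3, (classInner_eq_zero_comm _ _).mp (D₁.orth_one D₁.mem)]
    at hn
  have h4 : ((-1 : ℤ) : ℂ) = ((2 * n : ℤ) : ℂ) := by push_cast; linear_combination hn
  have := Int.cast_injective h4
  omega

open Classical in
theorem sum_eq_sum_cc {ι : Type*} [Fintype ι] (H : ι → Subgroup G)
    (hTI : ∀ i, ∀ g, g ∉ Subgroup.normalizer (H i : Set G) → ∀ s ∈ H i, g * s * g⁻¹ ∈ H i → s = 1)
    (hcop : ∀ i j, i ≠ j → (Nat.card (H i)).Coprime (Nat.card (H j)))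
    (hcov : ∀ g : G, g ≠ 1 → ∃ i x, x⁻¹ * g * x ∈ H i) {F : G → ℂ} (hF : IsClassFunction G F) :
    (Nat.card G : ℂ)⁻¹ * ∑ g, F g = (Nat.card G : ℂ)⁻¹ * F 1 +
      ∑ i, (Nat.card (Subgroup.normalizer (H i : Set G)) : ℂ)⁻¹ *
        ∑ x ∈ Finset.univ.filter (fun x => x ∈ H i ∧ x ≠ 1), F x := by
  let φ : ∀ i, Subgroup.normalizer (H i : Set G) → ℂ :=
    fun i l => if (l : G) ∈ H i ∧ (l : G) ≠ 1 then 1 else 0
  have hφ : ∀ i, IsClassFunction _ (φ i) := by
    intro i l m
    simp only [φ, Subgroup.coe_mul, Subgroup.coe_inv, ne_eq, conj_eq_one_iff]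
    rw [← Subgroup.mem_normalizer_iff.mp m.2]
  have hsupp : ∀ i, SuppOn (H i) (indFun _ (φ i)) := by
    intro i g hg
    refine indFun_eq_zero_of_forall _ _ fun x hx => ?_
    simp only [φ]
    rw [if_neg]
    rintro ⟨h1, h2⟩
    exact h2 (by simp [hg x h1])
  have hone : ∀ i g x, g ≠ 1 → x⁻¹ * g * x ∈ H i → indFun _ (φ i) g = 1 := by
    intro i g x hg hx
    have h1 : x⁻¹ * g * x ≠ 1 := by
      intro h
      apply hg
      calc g = x * (x⁻¹ * g * x) * x⁻¹ := by group
        _ = 1 := by rw [h]; group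
    rw [← H3.IsClassFunction_conj_inv (indFun_isClassFunction _ (φ i)) g x]
    have := indFun_eq_on_TI _ (H i : Set G) (hTI i) (hφ i) (fun y hy => by
      simp only [φ]; rw [if_neg fun h => hy h.1]) ⟨_, Subgroup.le_normalizer hx⟩ hx
      (fun h => h1 (congrArg Subtype.val h))
    rw [this]
    simp only [φ]
    rw [if_pos ⟨hx, h1⟩]
  have hsum : ∀ g, ∑ i, indFun _ (φ i) g = if g = 1 then 0 else 1 := by
    intro g
    split_ifs with hg
    · exact Finset.sum_eq_zero fun i _ => hsupp i g fun _ _ => hg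
    · obtain ⟨i, x, hx⟩ := hcov g hg
      rw [Finset.sum_eq_single i, hone i g x hg hx]
      · intro j _ hj
        rcases eq_zero_or_of_suppOn (hcop j i hj) (hsupp j) (hsupp i) g with h | h
        · exact h
        · rw [hone i g x hg hx] at h; exact absurd h one_ne_zero
      · simp
  have h1 : ∀ i, (Nat.card (Subgroup.normalizer (H i : Set G)) : ℂ)⁻¹ *
        ∑ x ∈ Finset.univ.filter (fun x => x ∈ H i ∧ x ≠ 1), F x =
        (Nat.card G : ℂ)⁻¹ * ∑ g, indFun _ (φ i) g * F g := by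
    intro i
    rw [sum_indFun_mul _ _ hF]
    congr 1
    rw [← sum_extendByZero_mul, Finset.sum_filter]
    refine Finset.sum_congr rfl fun g _ => ?_
    by_cases hg : g ∈ Subgroup.normalizer (H i : Set G)
    · rw [extendByZero_of_mem _ _ hg]
      simp only [φ]
      split_ifs <;> simp
    · rw [extendByZero_of_notMem _ _ hg, if_neg fun h => hg (Subgroup.le_normalizer h.1), zero_mul]
  simp only [h1]
  rw [← Finset.mul_sum, ← mul_add, Finset.sum_comm]
  congr 1
  simp only [← Finset.sum_mul, hsum]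
  rw [← Finset.add_sum_erase Finset.univ _ (Finset.mem_univ (1 : G)),
    ← Finset.add_sum_erase Finset.univ _ (Finset.mem_univ (1 : G)), if_pos rfl, zero_mul, zero_add]
  congr 1
  exact Finset.sum_congr rfl fun g hg => by rw [if_neg (Finset.ne_of_mem_erase hg), one_mul]

theorem cc_arith {w e : ℕ} (hw : 2 ≤ w) (he : 3 ≤ e) {m : ℕ}
    (hm : m = if w * e + 1 = 7 then 10 else w * e + 2) :
    (e : ℝ) / (w * e + 1 : ℕ) + 1 / e + (e - 1) / m ≤ 1 := by
  split_ifs at hm with h
  · have h1 : e = 3 := by nlinarith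
    rw [h, hm, h1]; norm_num
  · have he' : (3 : ℝ) ≤ e := by exact_mod_cast he
    by_cases h3 : e = 3
    · have hw3 : 3 ≤ w := by
        subst h3; omega
      have hw' : (3 : ℝ) ≤ w := by exact_mod_cast hw3
      subst h3 hm
      push_cast
      have h1 : (3 : ℝ) / (w * 3 + 1) ≤ 3 / 10 := by gcongr; linarith
      have h2 : ((3 : ℝ) - 1) / (w * 3 + 2) ≤ (3 - 1) / 11 := by gcongr; linarith
      linarith
    · have he4 : (4 : ℝ) ≤ e := by exact_mod_cast (by omega : 4 ≤ e)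
      have hw' : (2 : ℝ) ≤ w := by exact_mod_cast hw
      subst hm
      push_cast
      have h1 : (e : ℝ) / (w * e + 1) ≤ e / (2 * e + 1) := by gcongr
      have h2 : ((e : ℝ) - 1) / (w * e + 2) ≤ (e - 1) / (2 * e + 2) := by gcongr; linarith
      have h3 : (e : ℝ) / (2 * e + 1) + 1 / e + (e - 1) / (2 * e + 2) ≤ 1 := by
        rw [div_add_div _ _ (by positivity) (by positivity),
          div_add_div _ _ (by positivity) (by positivity), div_le_one (by positivity)]
        nlinarith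
      linarith

/-- There is no group of odd order partitioned by the conjugates of nilpotent `CC`-subgroups
that are not self-normalizing. -/
theorem no_cc_partition (hodd : Odd (Nat.card G)) {ι : Type*} [Finite ι] [Nonempty ι]
    (H : ι → Subgroup G)
    (hCC : ∀ i, ∀ x ∈ H i, x ≠ 1 → Subgroup.centralizer ({x} : Set G) ≤ H i)
    (hnil : ∀ i, Group.IsNilpotent (H i)) (hne : ∀ i, H i ≠ ⊥)
    (hN : ∀ i, Subgroup.normalizer (H i : Set G) ≠ H i)
    (hcop : ∀ i j, i ≠ j → (Nat.card (H i)).Coprime (Nat.card (H j)))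
    (hcov : ∀ g : G, g ≠ 1 → ∃ i x, x⁻¹ * g * x ∈ H i) : False := by
  classical
  have := Fintype.ofFinite ι
  choose h' e β J X D using fun i => exists_ccd hodd (hCC i) (hne i) (hN i)
  obtain ⟨i₁, -, hmin⟩ := Finset.exists_min_image Finset.univ h' Finset.univ_nonempty
  have hX₁ := (D i₁).irr _ (D i₁).mem
  have gX₁ := signed_gen hX₁
  set B := Finset.univ.filter (fun i => i ≠ i₁ ∧ classInner (X i₁) (β i) = 0) with hB
  have hmemB : ∀ i, i ∈ B ↔ i ≠ i₁ ∧ classInner (X i₁) (β i) = 0 := by simp [hB]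
  -- Bessel's inequality for `β i₁`
  have hbes : ∑ i ∈ B, (J i).card + 2 ≤ e i₁ + 1 := by
    obtain ⟨Y, hY, hβY⟩ : ∃ Y ∈ J i₁, classInner (β i₁) Y ≠ 0 := by
      obtain ⟨Y, hY, hYX⟩ := Finset.exists_mem_ne (D i₁).two_le (X i₁)
      have h1 := (D i₁).diff Y hY hYX
      rw [classInner_sub_right] at h1
      by_contra hcon
      push Not at hcon
      rw [hcon Y hY, hcon _ (D i₁).mem] at h1
      simp at h1
    have hself : ∀ i, ∀ Z ∈ J i, classInner Z Z ≠ 0 := fun i Z hZ => by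
      rw [signed_norm ((D i).irr Z hZ)]; exact one_ne_zero
    have h11 : classInner (fun _ : G => (1 : ℂ)) (fun _ => 1) = 1 :=
      H3.IsIrrCharacter_classInner_self H3.isIrrCharacter_one
    have hY1 : Y ∉ B.biUnion J := by
      intro h
      obtain ⟨i, hi, h⟩ := Finset.mem_biUnion.mp h
      exact hself i Y h ((D i).orth_orth (D i₁) (hcop _ _ ((hmemB i).mp hi).1) h hY)
    have h1J : ∀ i, (fun _ : G => (1 : ℂ)) ∉ J i := fun i h => hself i _ h ((D i).orth_one h)
    have hY2 : (fun _ : G => (1 : ℂ)) ∉ insert Y (B.biUnion J) := by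
      intro h
      rcases Finset.mem_insert.mp h with h | h
      · exact h1J i₁ (h ▸ hY)
      · obtain ⟨i, hi, h⟩ := Finset.mem_biUnion.mp h
        exact h1J i h
    have hmem : ∀ Z ∈ insert Y (B.biUnion J), ∃ i, Z ∈ J i := by
      intro Z h
      rcases Finset.mem_insert.mp h with h | h
      · exact ⟨i₁, h ▸ hY⟩
      · obtain ⟨i, hi, h⟩ := Finset.mem_biUnion.mp h
        exact ⟨i, h⟩
    have h1 := card_le_norm_of_signed (D i₁).gen (n := e i₁ + 1) (by rw [(D i₁).norm]; simp)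
      (insert (fun _ => 1) (insert Y (B.biUnion J))) (by
        intro Z hZ
        rcases Finset.mem_insert.mp hZ with h | h
        · exact ⟨H3.trivChar G, Or.inl h⟩
        · obtain ⟨i, hi⟩ := hmem Z h
          exact (D i).irr Z hi) (by
        intro Z hZ W hW hZW
        rcases Finset.mem_insert.mp hZ with h | h <;> rcases Finset.mem_insert.mp hW with h' | h'
        · exact absurd (h.trans h'.symm) hZW
        · obtain ⟨i, hi⟩ := hmem W h'
          rw [h, classInner_eq_zero_comm]; exact (D i).orth_one hi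
        · obtain ⟨i, hi⟩ := hmem Z h
          rw [h']; exact (D i).orth_one hi
        · obtain ⟨i, hi⟩ := hmem Z h
          obtain ⟨j, hj⟩ := hmem W h'
          by_cases hij : i = j
          · subst hij; exact (D i).orth Z hi W hj hZW
          · exact (D i).orth_orth (D j) (hcop i j hij) hi hj) (by
        intro Z hZ
        rcases Finset.mem_insert.mp hZ with h | h
        · rw [h, (D i₁).one]; exact one_ne_zero
        · rcases Finset.mem_insert.mp h with h | h
          · rw [h]; exact hβY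
          · obtain ⟨i, hi, h⟩ := Finset.mem_biUnion.mp h
            obtain ⟨hi1, hi2⟩ := (hmemB i).mp hi
            have h2 := (D i₁).parity hodd (D i) (hcop _ _ hi1.symm) hi2
            have h3 := classInner_eq_zero_of_suppOn (hcop _ _ hi1.symm) (D i₁).suppβ
              ((D i).supp Z h _ (D i).mem)
            rw [classInner_sub_right, sub_eq_zero] at h3
            rwa [h3])
    rw [Finset.card_insert_of_notMem hY2, Finset.card_insert_of_notMem hY1,
      Finset.card_biUnion] at h1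
    · exact h1
    · intro i _ j _ hij
      rw [Function.onFun, Finset.disjoint_left]
      intro Z hZ hZ'
      exact hself i Z hZ ((D i).orth_orth (D j) (hcop i j hij) hZ hZ')
  -- counting
  have hcount := sum_eq_sum_cc H (fun i => cc_TI (hCC i)) hcop hcov
    (F := fun g => ((‖X i₁ g‖ ^ 2 - 1 : ℝ) : ℂ)) (fun g x => by
      simp only [isGen_isClassFunction gX₁ g x])
  have hcardH : ∀ i, ((Finset.univ.filter (fun x => x ∈ H i ∧ x ≠ 1)).card : ℝ) =
      Nat.card (H i) - 1 := by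
    intro i
    rw [eq_sub_iff_add_eq, Nat.card_eq_fintype_card, Fintype.card_subtype]
    norm_cast
    rw [← Finset.card_insert_of_notMem (a := (1 : G)) (by simp)]
    congr 1
    ext x
    by_cases hx : x = 1 <;> simp [hx]
  have hG0 : (0 : ℝ) < Nat.card G := by exact_mod_cast Nat.card_pos
  have hnormX : ∑ g, ‖X i₁ g‖ ^ 2 = Nat.card G := by
    have h1 := signed_norm hX₁
    rw [classInner_self_eq, Complex.ofReal_eq_one] at h1
    field_simp at h1
    exact h1
  have hX1 : 1 ≤ ‖X i₁ 1‖ ^ 2 := by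
    obtain ⟨χ, hχ⟩ := hX₁
    have h1 : ‖X i₁ 1‖ = charDegree (χ : G → ℂ) := by
      rcases hχ with h | h <;> rw [h] <;> simp [← charDegree_irr_cast χ.2]
    have h2 : (1 : ℝ) ≤ charDegree (χ : G → ℂ) := by exact_mod_cast charDegree_pos χ.2
    rw [h1]; nlinarith
  set t : ι → ℝ := fun i => ((e i : ℝ) * Nat.card (H i))⁻¹ *
    (nsq (H i) (X i₁) - (Nat.card (H i) - 1)) with ht
  have hsumt : ∑ i, t i ≤ 0 := by
    have h1 : (((Nat.card G : ℝ)⁻¹ * ∑ g, (‖X i₁ g‖ ^ 2 - 1) : ℝ) : ℂ) =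
        (((Nat.card G : ℝ)⁻¹ * (‖X i₁ 1‖ ^ 2 - 1) + ∑ i, t i : ℝ) : ℂ) := by
      rw [Complex.ofReal_add, Complex.ofReal_mul, Complex.ofReal_mul, Complex.ofReal_sum,
        Complex.ofReal_sum, Complex.ofReal_inv, Complex.ofReal_natCast, hcount]
      congr 1
      refine Finset.sum_congr rfl fun i _ => ?_
      rw [← Complex.ofReal_sum, Finset.sum_sub_distrib, Finset.sum_const, nsmul_eq_mul, hcardH,
        ← (D i).card_norm]
      simp only [ht, nsq]
      push_cast; ring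
    rw [Complex.ofReal_inj, Finset.sum_sub_distrib, hnormX, Finset.sum_const, Finset.card_univ,
      ← Nat.card_eq_fintype_card, nsmul_eq_mul, mul_one, sub_self, mul_zero] at h1
    have : 0 ≤ (Nat.card G : ℝ)⁻¹ * (‖X i₁ 1‖ ^ 2 - 1) := by
      apply mul_nonneg (by positivity); linarith
    linarith
  set m : ℕ := if (J i₁).card * e i₁ + 1 = 7 then 10 else (J i₁).card * e i₁ + 2 with hm
  have harith := cc_arith (D i₁).two_le (D i₁).three_le hm
  have hm0 : (0 : ℝ) < m := by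
    rw [hm]; split_ifs <;> positivity
  have hoddh : ∀ i, Odd (h' i) := fun i =>
    hodd.of_dvd_nat ((D i).dvd.trans (H i).card_subgroup_dvd_card)
  have hodde : ∀ i, Odd (e i) := fun i =>
    hodd.of_dvd_nat ((Dvd.intro _ (D i).card_norm).trans (Subgroup.card_subgroup_dvd_card _))
  have hHpos : ∀ i, (0 : ℝ) < Nat.card (H i) := fun i => by exact_mod_cast Nat.card_pos
  have hepos : ∀ i, (0 : ℝ) < e i := fun i => by
    have := (D i).three_le
    exact_mod_cast (by omega : 0 < e i)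
  have hmle : ∀ i, i ≠ i₁ → m ≤ (J i).card * e i := by
    intro i hi
    have h1 := hmin i (Finset.mem_univ i)
    have h2 : h' i ≠ h' i₁ := by
      intro h
      have h3 := Nat.eq_one_of_dvd_coprimes (hcop i i₁ hi) (D i).dvd (h ▸ (D i₁).dvd)
      have h4 := (D i).card_J
      have h5 := Nat.mul_le_mul (D i).two_le (D i).three_le
      omega
    obtain ⟨a, ha⟩ := hoddh i
    obtain ⟨b, hb⟩ := hoddh i₁
    have h3 := (D i).card_J
    have h4 := (D i₁).card_J
    rw [hm]
    split_ifs with h7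
    · have h5 : (J i).card * e i ≠ 8 := by
        intro h8
        have h6 : e i ∣ 2 ^ 3 := Dvd.intro_left _ h8
        have h7 := (Nat.Coprime.pow_right 3 (Nat.coprime_two_right.mpr (hodde i))).eq_one_of_dvd h6
        have := (D i).three_le
        omega
      omega
    · omega
  have hti : ∀ i, i ≠ i₁ → -(if i ∈ B then ((J i).card : ℝ) / m else 0) ≤ t i := by
    intro i hi
    have hnsq : 0 ≤ nsq (H i) (X i₁) := Finset.sum_nonneg fun _ _ => sq_nonneg _
    simp only [ht]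
    split_ifs with h
    · have h1 : (m : ℝ) ≤ (J i).card * e i := by exact_mod_cast hmle i hi
      have h2 : (1 : ℝ) / e i ≤ (J i).card / m := by
        rw [div_le_div_iff₀ (hepos i) hm0]; linarith
      have h3 : -(1 / e i : ℝ) ≤ ((e i : ℝ) * Nat.card (H i))⁻¹ *
          (nsq (H i) (X i₁) - (Nat.card (H i) - 1)) := by
        have := hepos i
        have := hHpos i
        rw [← div_eq_inv_mul, ← neg_div, div_le_div_iff₀ (by positivity) (by positivity)]
        nlinarith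
      linarith
    · rw [neg_zero]
      refine mul_nonneg (by positivity) (sub_nonneg.mpr ((D i).low _ gX₁ ?_ ?_))
      · intro Y hY Z hZ
        rw [classInner_sub_right, (D i₁).orth_orth (D i) (hcop _ _ hi.symm) (D i₁).mem hY,
          (D i₁).orth_orth (D i) (hcop _ _ hi.symm) (D i₁).mem hZ, sub_zero]
      · exact fun h' => h ((hmemB i).mpr ⟨hi, h'⟩)
  have ht1 : 1 - (e i₁ : ℝ) / h' i₁ - 1 / e i₁ < t i₁ := by
    simp only [ht]
    have h1 := (D i₁).low₀
    have h2 := hepos i₁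
    have h3 := hHpos i₁
    rw [← div_eq_inv_mul, lt_div_iff₀ (by positivity)]
    have h4 : (1 - (e i₁ : ℝ) / h' i₁ - 1 / e i₁) * (e i₁ * Nat.card (H i₁)) =
        Nat.card (H i₁) * ((e i₁ : ℝ) - e i₁ ^ 2 / h' i₁) - Nat.card (H i₁) := by
      field_simp
    rw [h4]; linarith
  rw [← Finset.add_sum_erase Finset.univ _ (Finset.mem_univ i₁)] at hsumt
  have h1 := Finset.sum_le_sum (s := Finset.univ.erase i₁)
    fun i hi => hti i (Finset.ne_of_mem_erase hi)
  rw [Finset.sum_neg_distrib, ← Finset.sum_filter, Finset.filter_mem_eq_inter,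
    Finset.inter_eq_right.mpr (fun i hi => by simp [((hmemB i).mp hi).1]), ← Finset.sum_div] at h1
  have h2 : (∑ i ∈ B, ((J i).card : ℝ)) / m ≤ (e i₁ - 1) / m := by
    gcongr
    have : ((∑ i ∈ B, (J i).card + 2 : ℕ) : ℝ) ≤ (e i₁ + 1 : ℕ) := by exact_mod_cast hbes
    push_cast at this
    linarith
  rw [(D i₁).card_J] at harith
  linarith

end Cfsg.Agent.H4
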