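import Cfsg.Agent.Lib.H4.CNLocal
import Cfsg.Agent.Lib.H4.CNChar
import Cfsg.Prelude.Def_LieExceptional

/-!
# CN-groups of odd order are solvable
-/

set_option autoImplicit false
set_option linter.unusedSectionVars false

open scoped Pointwise commutatorElement

namespace Cfsg.Agent.H4

open Cfsg Cfsg.Agent Subgroup

section Basic

variable {G : Type*} [Group G] [Finite G]

theorem commute_of_isNilpotent {K : Subgroup G} [Group.IsNilpotent K] {x y : G} (hx : x ∈ K)
    (hy : y ∈ K) (h : (orderOf x).Coprime (orderOf y)) : Commute x y := by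
  by_cases hx1 : x = 1
  · simp [hx1]
  -- induct on the number of prime factors through the Sylow structure of `K`
  have key : ∀ (q : ℕ) [Fact q.Prime] (a b : K), (∃ k : ℕ, orderOf a = q ^ k) →
      ¬ q ∣ orderOf b → Commute a b := by
    intro q _ a b ha hb
    obtain ⟨Q, hQ⟩ := (H5.isPGroup_zpowers ha).exists_le_sylow
    have hn := H1.sylow_normal_of_isNilpotent Q
    have := Group.nilpotent_of_mulEquiv (topEquiv (G := K)).symm
    have h1 := H1.le_centralizer_of_isNilpotent_of_coprime (S := ⊤) (A := zpowers b)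
      (K := (Q : Subgroup K)) le_top le_top (by rw [normalizer_eq_top]; exact le_top)
      (H1.coprime_card_of_isPGroup Q.isPGroup' (by
        rw [Nat.card_zpowers]; exact ((Nat.Prime.coprime_iff_not_dvd Fact.out).mpr hb).symm))
    exact mem_centralizer_iff.mp (h1 (mem_zpowers b)) a (hQ (mem_zpowers a))
  have h2 : zpowers (⟨x, hx⟩ : K) ≤ centralizer ({(⟨y, hy⟩ : K)} : Set K) := by
    refine H1.le_of_forall_isPGroup fun q _ Q hQ hQx a ha => ?_
    by_cases ha1 : a = 1
    · simp [ha1]
    rw [mem_centralizer_singleton_iff]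
    refine key q a _ (H5.pElt_of_mem hQ ha) fun hq => ?_
    obtain ⟨k, hk⟩ := H5.pElt_of_mem hQ ha
    have h3 : q ∣ orderOf a := by
      rw [hk]
      refine dvd_pow_self q ?_
      rintro rfl
      exact ha1 (orderOf_eq_one_iff.mp (by simpa using hk))
    have h4 := h3.trans (orderOf_dvd_of_mem_zpowers (hQx ha))
    rw [orderOf_mk] at h4 hq
    exact (Fact.out : q.Prime).one_lt.ne' (Nat.eq_one_of_dvd_coprimes h h4 hq)
  exact congrArg Subtype.val (mem_centralizer_singleton_iff.mp (h2 (mem_zpowers _)))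

variable {p : ℕ} [hp : Fact p.Prime]

theorem commute_of_isNilpotent' {K : Subgroup G} [Group.IsNilpotent K] {x y : G} (hx : x ∈ K)
    (hy : y ∈ K) (h1 : ∃ k : ℕ, orderOf x = p ^ k) (h2 : ¬ p ∣ orderOf y) : Commute x y := by
  obtain ⟨k, hk⟩ := h1
  refine commute_of_isNilpotent hx hy ?_
  rw [hk]
  exact ((Nat.Prime.coprime_iff_not_dvd hp.out).mpr h2).pow_left k

/-- The subgroup `S C(S)`. -/
def hull (S : Subgroup G) : Subgroup G := S ⊔ centralizer (S : Set G)

theorem le_hull (S : Subgroup G) : S ≤ hull S := le_sup_left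

theorem conj_smul_hull (g : G) (S : Subgroup G) :
    MulAut.conj g • hull S = hull (MulAut.conj g • S) := by
  rw [hull, smul_sup, H1.conj_smul_centralizer]; rfl

theorem le_hull_of_isNilpotent {S K : Subgroup G} (hS : H1.IsSylowIn p S ⊤) [Group.IsNilpotent K]
    (hSK : S ≤ K) : K ≤ hull S := by
  intro k hk
  rw [← H5.pPart_mul_pPart' (p := p) k]
  refine mul_mem (le_hull S ?_) (mem_sup_right ?_)
  · obtain ⟨T, hT⟩ := (hS.mono hSK le_top).exists_sylow
    have hn := H1.sylow_normal_of_isNilpotent T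
    have h1 : zpowers (H5.pPart p (⟨k, hk⟩ : K)) ≤ T := by
      have := T.is_maximal' (IsPGroup.to_sup_of_normal_left T.isPGroup'
        (H5.isPGroup_zpowers (H5.pPart_pElt (p := p) (⟨k, hk⟩ : K)))) le_sup_left
      rw [← this]; exact le_sup_right
    rw [← hT]
    exact ⟨_, h1 (mem_zpowers _), H5.coe_pPart _⟩
  · intro s hs
    exact commute_of_isNilpotent' (hSK hs) (H5.pPart'_mem hk) (H5.pElt_of_mem hS.isPGroup hs)
      (H5.pPart'_pReg k)

theorem exists_central {S : Subgroup G} (hS : IsPGroup p S) (hne : S ≠ ⊥) :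
    ∃ z ∈ S, z ≠ 1 ∧ S ≤ centralizer ({z} : Set G) := by
  obtain ⟨z, hz, hz1⟩ := (bot_or_exists_ne_one _).resolve_left
    (H1.inf_centralizer_ne_bot_of_isPGroup hS hS le_normalizer hne)
  exact ⟨z, hz.1, hz1, fun s hs => mem_centralizer_singleton_iff.mpr
    (mem_centralizer_iff.mp hz.2 s hs)⟩

theorem hull_le_centralizer {S : Subgroup G} {z : G} (hz : z ∈ S)
    (h : S ≤ centralizer ({z} : Set G)) : hull S ≤ centralizer ({z} : Set G) :=
  sup_le h (centralizer_le (by simpa using hz))

theorem ne_bot_of_isSylowIn {S : Subgroup G} (hS : H1.IsSylowIn p S ⊤) (h : p ∣ Nat.card G) :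
    S ≠ ⊥ := by
  rintro rfl
  exact hS.not_dvd (by rwa [relIndex_top_right, index_bot])

theorem isCN_subgroup (hCN : IsCNGroup G) (K : Subgroup G) : IsCNGroup K := by
  intro x hx
  have := hCN x fun h => hx (Subtype.ext h)
  rw [← H5.centralizer_singleton_subgroupOf]
  have h1 : Group.IsNilpotent (centralizer ({(x : G)} : Set G) ⊓ K : Subgroup G) :=
    H1.isNilpotent_of_le inf_le_left
  rw [← inf_subgroupOf_right]
  exact Group.nilpotent_of_mulEquiv (subgroupOfEquivOfLe inf_le_right).symm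

variable (hCN : IsCNGroup G)
include hCN

theorem hull_isNilpotent {S : Subgroup G} (hS : IsPGroup p S) (hne : S ≠ ⊥) :
    Group.IsNilpotent (hull S) := by
  obtain ⟨z, hz, hz1, h⟩ := exists_central hS hne
  have := hCN z hz1
  exact H1.isNilpotent_of_le (hull_le_centralizer hz h)

theorem mem_centralizer_of_commute {S : Subgroup G} (hS : IsPGroup p S) {x y : G} (hx : x ∈ S)
    (hx1 : x ≠ 1) (hy : ¬ p ∣ orderOf y) (hxy : Commute x y) : y ∈ centralizer (S : Set G) := by
  obtain ⟨z, hz, hz1, h⟩ := exists_central hS fun h => hx1 (mem_bot.mp (h ▸ hx))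
  have := hCN x hx1
  have := hCN z hz1
  have h1 : Commute z y := commute_of_isNilpotent' (K := centralizer ({x} : Set G))
    (mem_centralizer_singleton_iff.mpr (mem_centralizer_singleton_iff.mp (h hx)).symm)
    (mem_centralizer_singleton_iff.mpr hxy.symm) (H5.pElt_of_mem hS hz) hy
  intro s hs
  exact commute_of_isNilpotent' (K := centralizer ({z} : Set G)) (h hs)
    (mem_centralizer_singleton_iff.mpr h1.symm) (H5.pElt_of_mem hS hs) hy

theorem exists_sylow_hull_eq {S : Subgroup G} (hS : H1.IsSylowIn p S ⊤) (hne : S ≠ ⊥) (r : ℕ)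
    [hr : Fact r.Prime] (hrS : r ∣ Nat.card (hull S)) :
    ∃ R, H1.IsSylowIn r R ⊤ ∧ R ≠ ⊥ ∧ hull R = hull S := by
  by_cases hrp : r = p
  · subst hrp; exact ⟨S, hS, hne, rfl⟩
  have := hull_isNilpotent hCN hS.isPGroup hne
  obtain ⟨y, hy⟩ := exists_prime_orderOf_dvd_card' r hrS
  rw [← orderOf_coe] at hy
  have hy1 : (y : G) ≠ 1 := fun h => hr.out.one_lt.ne (by rw [← hy, h, orderOf_one])
  have hnd : ∀ {s : G}, s ∈ S → ¬ r ∣ orderOf s := by
    intro s hs h
    obtain ⟨k, hk⟩ := H5.pElt_of_mem hS.isPGroup hs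
    rw [hk] at h
    exact hrp ((Nat.prime_dvd_prime_iff_eq hr.out hp.out).mp (hr.out.dvd_of_dvd_pow h))
  obtain ⟨R, hR, hyR⟩ := H1.exists_isSylowIn_ge
    (H5.isPGroup_zpowers (p := r) (x := (y : G)) ⟨1, by simpa using hy⟩) le_top
  have hyR' := hyR (mem_zpowers _)
  have hRne : R ≠ ⊥ := fun h => hy1 (mem_bot.mp (h ▸ hyR'))
  have hSR : S ≤ centralizer (R : Set G) := fun s hs =>
    mem_centralizer_of_commute hCN hR.isPGroup hyR' hy1 (hnd hs)
      (commute_of_isNilpotent' y.2 (le_hull S hs) ⟨1, by simpa using hy⟩ (hnd hs))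
  have := hull_isNilpotent hCN hR.isPGroup hRne
  exact ⟨R, hR, hRne, le_antisymm (le_hull_of_isNilpotent hS (hSR.trans le_sup_right))
    (le_hull_of_isNilpotent hR ((le_centralizer_iff.mp hSR).trans le_sup_right))⟩

theorem centralizer_le_hull_of_not_isolated {S : Subgroup G} (hS : H1.IsSylowIn p S ⊤)
    (h : ¬ IsolatedPrime p G) {x : G} (hx : x ∈ hull S) (hx1 : x ≠ 1) :
    centralizer ({x} : Set G) ≤ hull S := by
  unfold IsolatedPrime at h
  push Not at h
  obtain ⟨a, b, ha, hb, hab, ha1, hb1⟩ := h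
  obtain ⟨c, -, hc⟩ := hS.exists_conj_le (H5.isPGroup_zpowers ha) le_top
  have haS : c * a * c⁻¹ ∈ S := hc (smul_mem_pointwise_smul _ _ _ (mem_zpowers a))
  have ha1' : c * a * c⁻¹ ≠ 1 := by simpa using ha1
  have hne : S ≠ ⊥ := fun h => ha1' (mem_bot.mp (h ▸ haS))
  have hbS : c * b * c⁻¹ ∈ hull S := mem_sup_right (mem_centralizer_of_commute hCN hS.isPGroup haS
    ha1' (by rwa [H5.orderOf_conj']) (hab.map (MulAut.conj c)))
  have := hull_isNilpotent hCN hS.isPGroup hne
  obtain ⟨y, hy, hyp⟩ := H2.exists_prime_orderOf_mem (W := zpowers x) (by simpa using hx1)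
  have hyH : y ∈ hull S := zpowers_le.mpr hx hy
  have hy1 : y ≠ 1 := fun h => Nat.not_prime_one (by rwa [h, orderOf_one] at hyp)
  have hCxy : centralizer ({x} : Set G) ≤ centralizer ({y} : Set G) := by
    rw [← H5.centralizer_zpowers x]
    exact centralizer_le (by simpa using hy)
  obtain ⟨s, hs, hsH, hsy⟩ : ∃ s : ℕ, s.Prime ∧ s ∣ Nat.card (hull S) ∧ s ≠ orderOf y := by
    by_cases hpy : p = orderOf y
    · obtain ⟨s, hs, hsb⟩ := Nat.exists_prime_and_dvd (n := orderOf b) (by simpa using hb1)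
      refine ⟨s, hs, hsb.trans ?_, fun h => hb (by rwa [hpy, ← h])⟩
      rw [← H5.orderOf_conj' b c]; exact orderOf_dvd_natCard _ hbS
    · refine ⟨p, hp.out, ?_, hpy⟩
      obtain ⟨k, hk⟩ := ha
      have h1 := orderOf_dvd_natCard _ (le_hull S haS)
      rw [H5.orderOf_conj', hk] at h1
      refine (dvd_pow_self p ?_).trans h1
      rintro rfl
      exact ha1 (orderOf_eq_one_iff.mp (by simpa using hk))
  have : Fact s.Prime := ⟨hs⟩
  obtain ⟨R, hR, -, hRS⟩ := exists_sylow_hull_eq hCN hS hne s hsH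
  have := hCN y hy1
  rw [← hRS]
  refine hCxy.trans (le_hull_of_isNilpotent hR fun z hz => mem_centralizer_singleton_iff.mpr ?_)
  exact commute_of_isNilpotent' (K := hull S) (hRS ▸ le_hull R hz) hyH
    (H5.pElt_of_mem hR.isPGroup hz) fun h => hsy ((Nat.prime_dvd_prime_iff_eq hs hyp).mp h)

theorem isCN_quotient {K : Type*} [Group K] [Finite K] (f : G →* K) (hf : Function.Surjective f)
    (hk : IsPGroup p f.ker) (hne : f.ker ≠ ⊥) : IsCNGroup K := by
  intro x hx1
  obtain ⟨y, hy, hyp⟩ := H2.exists_prime_orderOf_mem (W := zpowers x) (by simpa using hx1)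
  have hy1 : y ≠ 1 := fun h => Nat.not_prime_one (by rwa [h, orderOf_one] at hyp)
  have hCxy : centralizer ({x} : Set K) ≤ centralizer ({y} : Set K) := by
    rw [← H5.centralizer_zpowers x]
    exact centralizer_le (by simpa using hy)
  suffices h : Group.IsNilpotent (centralizer ({y} : Set K)) from H1.isNilpotent_of_le hCxy
  by_cases hpy : p ∣ orderOf y
  · have hyp' : ∃ k : ℕ, orderOf y = p ^ k :=
      ⟨1, by rw [pow_one, (Nat.prime_dvd_prime_iff_eq hp.out hyp).mp hpy]⟩
    by_cases hiso : IsolatedPrime p G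
    · exact ((hiso.quotient f hf hk).isPGroup_centralizer hyp' hy1).isNilpotent
    · obtain ⟨S, hS, hkS⟩ := H1.exists_isSylowIn_ge hk le_top
      have hSne : S ≠ ⊥ := fun h => hne (le_bot_iff.mp (h ▸ hkS))
      have := hull_isNilpotent hCN hS.isPGroup hSne
      have := Fintype.ofFinite G
      have hCC := fun x hx hx1 => centralizer_le_hull_of_not_isolated hCN hS hiso (x := x) hx hx1
      have hn : (hull S).Normal := by
        rw [← normalizer_eq_top_iff, eq_top_iff]
        intro g _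
        by_contra hg
        obtain ⟨m, hm, hm1⟩ := (bot_or_exists_ne_one _).resolve_left hne
        exact hm1 (cc_TI hCC g hg m (le_hull S (hkS hm))
          (le_hull S (hkS ((MonoidHom.normal_ker f).conj_mem m hm g))))
      have hpel : ∀ c : G, (∃ k : ℕ, orderOf c = p ^ k) → c ∈ hull S := by
        intro c hc
        obtain ⟨d, -, hd⟩ := hS.exists_conj_le (H5.isPGroup_zpowers hc) le_top
        have h1 : d * c * d⁻¹ ∈ S := hd (smul_mem_pointwise_smul _ _ _ (mem_zpowers c))
        simpa [mul_assoc] using hn.conj_mem _ (le_hull S h1) d⁻¹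
      have h1 : centralizer ({y} : Set K) ≤ (hull S).map f := by
        intro z hz
        obtain ⟨z, rfl⟩ := hf z
        refine ⟨z, ?_, rfl⟩
        rw [← H5.pPart_mul_pPart' (p := p) z]
        refine mul_mem (hpel _ (H5.pPart_pElt z)) ?_
        obtain ⟨c, hc, hcz, hcy⟩ := exists_commute_lift f hf hk (H5.pPart'_pReg (p := p) z) hyp' (by
          rw [H5.map_pPart']
          exact (H5.commute_pPart' (mem_centralizer_singleton_iff.mp hz)).symm)
        refine hCC c (hpel c hc) (fun h => hy1 (by rw [← hcy, h, map_one])) ?_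
        exact mem_centralizer_singleton_iff.mpr hcz.symm
      have : Group.IsNilpotent ((hull S).map f) :=
        Group.nilpotent_of_surjective _ (f.subgroupMap_surjective _)
      exact H1.isNilpotent_of_le h1
  · obtain ⟨y, hy', rfl⟩ := H3.exists_pReg_lift f hf hpy
    have h1 := H1.centralizer_map_of_coprime (A := zpowers y) hf
      (H1.coprime_card_of_isPGroup hk (by
        rw [Nat.card_zpowers]; exact ((Nat.Prime.coprime_iff_not_dvd hp.out).mpr hy').symm))
      (Or.inl inferInstance)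
    rw [MonoidHom.map_zpowers, H5.centralizer_zpowers, H5.centralizer_zpowers] at h1
    rw [h1]
    have := hCN y fun h => hy1 (by rw [h, map_one])
    exact Group.nilpotent_of_surjective _ (f.subgroupMap_surjective _)

end Basic

theorem not_simple_cn {G : Type*} [Group G] [Finite G] [IsSimpleGroup G]
    (hodd : Odd (Nat.card G)) (hCN : IsCNGroup G) (hG : ¬ Group.IsSolvable G)
    (hsub : ∀ K : Subgroup G, K ≠ ⊤ → Group.IsSolvable K) : False := by
  classical
  have := Fintype.ofFinite G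
  have hnil : ∀ K : Subgroup G, Group.IsNilpotent K → K ≠ ⊤ := by
    rintro K hK rfl
    exact hG (Group.isSolvable_of_surjective (f := (topEquiv (G := G)).toMonoidHom)
      topEquiv.surjective)
  have hperf : commutator G = ⊤ := by
    refine (IsSimpleGroup.eq_bot_or_eq_top_of_normal _ inferInstance).resolve_left fun h => hG ?_
    exact ⟨⟨1, by simpa using h⟩⟩
  have hCC : ∀ (p : ℕ) [Fact p.Prime] (S : Subgroup G), H1.IsSylowIn p S ⊤ →
      ∀ x ∈ hull S, x ≠ 1 → centralizer ({x} : Set G) ≤ hull S := by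
    intro p _ S hS x hx hx1
    by_cases hiso : IsolatedPrime p G
    · have hsolv : ∀ D : Subgroup G, D ≠ ⊥ → IsPGroup p D →
          Group.IsSolvable (normalizer (D : Set G)) := by
        intro D hD hDp
        refine hsub _ fun h => ?_
        rcases IsSimpleGroup.eq_bot_or_eq_top_of_normal D (normalizer_eq_top_iff.mp h) with h | h
        · exact hD h
        · exact hnil D hDp.isNilpotent h
      by_cases hne : S = ⊥
      · subst hne
        intro y _
        exact mem_sup_right (by simp [mem_centralizer_iff])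
      · obtain ⟨z, hz, hz1, h⟩ := exists_central hS.isPGroup hne
        have h1 : hull S ≤ S := (hull_le_centralizer hz h).trans
          (hiso.centralizer_le_sylow hodd hsolv hperf hS hz hz1)
        exact (hiso.centralizer_le_sylow hodd hsolv hperf hS (h1 hx) hx1).trans (le_hull S)
    · exact centralizer_le_hull_of_not_isolated hCN hS hiso hx hx1
  let ι := {n : ℕ // ∃ (p : ℕ) (S : Subgroup G), p.Prime ∧ H1.IsSylowIn p S ⊤ ∧ S ≠ ⊥ ∧
    Nat.card (hull S) = n}
  choose p S hp hS hne hcard using fun i : ι => i.2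
  have : Finite ι := Finite.of_injective (fun i : ι => (⟨i.1, by
    rw [← hcard i]; exact Nat.lt_succ_of_le (card_le_card_group _)⟩ : Fin (Nat.card G + 1)))
    fun i j h => Subtype.ext (congrArg Fin.val h)
  have hconj : ∀ (p q r : ℕ) (S T : Subgroup G), p.Prime → q.Prime → r.Prime →
      H1.IsSylowIn p S ⊤ → H1.IsSylowIn q T ⊤ → S ≠ ⊥ → T ≠ ⊥ → r ∣ Nat.card (hull S) →
      r ∣ Nat.card (hull T) → ∃ g : G, MulAut.conj g • hull S = hull T := by
    intro p q r S T hp hq hr hS hT hSne hTne h1 h2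
    have : Fact p.Prime := ⟨hp⟩
    have : Fact q.Prime := ⟨hq⟩
    have : Fact r.Prime := ⟨hr⟩
    obtain ⟨R, hR, -, hRS⟩ := exists_sylow_hull_eq hCN hS hSne r h1
    obtain ⟨R', hR', -, hRT⟩ := exists_sylow_hull_eq hCN hT hTne r h2
    obtain ⟨g, -, hg⟩ := hR.exists_conj hR'
    exact ⟨g, by rw [← hRS, conj_smul_hull, hg, hRT]⟩
  have hcov : ∀ g : G, g ≠ 1 → ∃ i x, x⁻¹ * g * x ∈ hull (S i) := by
    intro g hg
    obtain ⟨y, hy, hyp⟩ := H2.exists_prime_orderOf_mem (W := zpowers g) (by simpa using hg)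
    have hy1 : y ≠ 1 := fun h => Nat.not_prime_one (by rwa [h, orderOf_one] at hyp)
    have : Fact (orderOf y).Prime := ⟨hyp⟩
    obtain ⟨R, hR, hyR⟩ := H1.exists_isSylowIn_ge
      (H5.isPGroup_zpowers (p := orderOf y) (x := y) ⟨1, by simp⟩) le_top
    have hyR' := hyR (mem_zpowers y)
    have hRne : R ≠ ⊥ := fun h => hy1 (mem_bot.mp (h ▸ hyR'))
    have hgR : g ∈ hull R := by
      refine hCC _ R hR y (le_hull R hyR') hy1 (mem_centralizer_singleton_iff.mpr ?_)
      obtain ⟨k, rfl⟩ := mem_zpowers_iff.mp hy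
      exact (Commute.zpow_right rfl k)
    let i : ι := ⟨_, _, R, hyp, hR, hRne, rfl⟩
    have h1 := orderOf_dvd_natCard _ (le_hull R hyR')
    obtain ⟨x, hx⟩ := hconj _ _ _ (S i) R (hp i) hyp hyp (hS i) hR (hne i) hRne
      (by rw [hcard i]; exact h1) h1
    exact ⟨i, x, by rwa [← H1.mem_conj_smul_iff, hx]⟩
  have : Nonempty ι := by
    obtain ⟨g, hg⟩ := exists_ne (1 : G)
    obtain ⟨i, -⟩ := hcov g hg
    exact ⟨i⟩
  have hnilH : ∀ i, Group.IsNilpotent (hull (S i)) := fun i =>
    have : Fact (p i).Prime := ⟨hp i⟩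
    hull_isNilpotent hCN (hS i).isPGroup (hne i)
  have hCCH : ∀ i, ∀ x ∈ hull (S i), x ≠ 1 → centralizer ({x} : Set G) ≤ hull (S i) := fun i =>
    have : Fact (p i).Prime := ⟨hp i⟩
    hCC (p i) (S i) (hS i)
  have hneH : ∀ i, hull (S i) ≠ ⊥ := fun i h => hne i (le_bot_iff.mp (h ▸ le_hull (S i)))
  refine no_cc_partition hodd (fun i => hull (S i)) hCCH hnilH hneH (fun i h => ?_)
    (fun i j hij => ?_) hcov
  · have := hnilH i
    have h1 := cc_TI (hCCH i)
    rw [h] at h1
    obtain ⟨N, -, hN, hc⟩ := frobenius_theorem h1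
    rcases IsSimpleGroup.eq_bot_or_eq_top_of_normal N hN with h2 | h2
    · rw [h2, isComplement'_bot_left] at hc
      exact hnil _ this hc
    · rw [h2, isComplement'_top_left] at hc
      exact hneH i hc
  · refine Nat.coprime_of_dvd fun r hr h1 h2 => hij (Subtype.ext ?_)
    obtain ⟨g, hg⟩ := hconj _ _ r _ _ (hp i) (hp j) hr (hS i) (hS j) (hne i) (hne j) h1 h2
    rw [← hcard i, ← hcard j, ← hg, H1.card_smul]

universe u in
theorem isSolvable_of_cn_aux (n : ℕ) : ∀ (G : Type u) [Group G] [Finite G], Nat.card G = n →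
    Odd (Nat.card G) → IsCNGroup G → Group.IsSolvable G := by
  induction n using Nat.strong_induction_on with
  | _ n ih =>
    intro G _ _ hn hodd hCN
    have hsub : ∀ K : Subgroup G, K ≠ ⊤ → Group.IsSolvable K := fun K hK =>
      ih _ (hn ▸ H1.card_lt_of_ne_top hK) K rfl (hodd.of_dvd_nat K.card_subgroup_dvd_card)
        (isCN_subgroup hCN K)
    rcases subsingleton_or_nontrivial G with h | h
    · infer_instance
    by_cases hs : ∀ N : Subgroup G, N.Normal → N = ⊥ ∨ N = ⊤
    · have : IsSimpleGroup G := ⟨hs⟩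
      by_contra hG
      exact not_simple_cn hodd hCN hG hsub
    · push Not at hs
      obtain ⟨N, hN, hN1, hN2⟩ := hs
      have := hsub N hN2
      obtain ⟨M, p, hp, hM, -, hM1, -, hMp, -⟩ := H1.exists_normal_elementary_le N hN1
      have : Fact p.Prime := ⟨hp⟩
      have hMp' := H1.isPGroup_of_pow_eq_one hMp
      have h1 : Group.IsSolvable (G ⧸ M) := ih _ (hn ▸ H1.card_quotient_lt hM1) _ rfl
        (hodd.of_dvd_nat (card_quotient_dvd_card M))
        (isCN_quotient hCN (QuotientGroup.mk' M) (QuotientGroup.mk'_surjective M)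
          (by rwa [QuotientGroup.ker_mk']) (by rwa [QuotientGroup.ker_mk']))
      have := hMp'.isNilpotent
      exact Group.isSolvable_of_ker_le_range M.subtype (QuotientGroup.mk' M) (by simp)

theorem isSolvable_of_cn {G : Type*} [Group G] [Finite G] (hodd : Odd (Nat.card G))
    (hCN : IsCNGroup G) : Group.IsSolvable G :=
  isSolvable_of_cn_aux _ G rfl hodd hCN

end Cfsg.Agent.H4
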