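import Cfsg.Agent.Lib.H1.Thompson
import Cfsg.Agent.Lib.H1.Solvable
import Cfsg.Agent.Lib.H2.FrobCompl
import Cfsg.Agent.Lib.H6.Transfer
import Cfsg.Agent.Lib.H3.Cover
import Cfsg.Agent.Lib.H5.Third

/-!
# Groups in which the centralizers of non-identity `p`-elements are `p`-groups
-/

set_option autoImplicit false
set_option linter.unusedSectionVars false

open scoped Pointwise commutatorElement

namespace Cfsg.Agent.H4

open Cfsg Cfsg.Agent Subgroup

/-- No non-identity `p`-element commutes with a non-identity `p`-regular element. -/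
def IsolatedPrime (p : ℕ) (G : Type*) [Group G] : Prop :=
  ∀ x y : G, (∃ k : ℕ, orderOf x = p ^ k) → ¬ p ∣ orderOf y → Commute x y → x = 1 ∨ y = 1

section Quad

variable {X V : Type*} [Group X] [CommGroup V]

theorem prod_conj_eq_one [Finite X] (ρ : X →* MulAut V) (K : Subgroup X) [hK : K.Normal]
    [Fintype K] (hfix : ∀ v : V, (∀ k ∈ K, ρ k v = v) → v = 1) {a : X}
    (ha : ∀ k ∈ K, k * a = a * k → k = 1) (v : V) : ∏ y : K, ρ (y * a * (y : X)⁻¹) v = 1 := by
  have hN : ∀ w : V, ∏ k : K, ρ k w = 1 := by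
    intro w
    refine hfix _ fun k hk => ?_
    rw [map_prod]
    refine Fintype.prod_equiv (Equiv.mulLeft (⟨k, hk⟩ : K)) _ _ fun x => ?_
    simp
  let f : K → K := fun y => ⟨y * a * (y : X)⁻¹ * a⁻¹, by
    have h1 : a * (y : X)⁻¹ * a⁻¹ ∈ K := hK.conj_mem _ (K.inv_mem y.2) a
    simpa [mul_assoc] using K.mul_mem y.2 h1⟩
  have hf : Function.Injective f := by
    intro y z h
    have h1 : (y : X) * a * (y : X)⁻¹ * a⁻¹ = z * a * (z : X)⁻¹ * a⁻¹ := congrArg Subtype.val h
    have h2 := ha ((z : X)⁻¹ * y) (K.mul_mem (K.inv_mem z.2) y.2) (by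
      calc (z : X)⁻¹ * y * a = (z : X)⁻¹ * (y * a * (y : X)⁻¹ * a⁻¹) * a * y := by group
        _ = (z : X)⁻¹ * (z * a * (z : X)⁻¹ * a⁻¹) * a * y := by rw [h1]
        _ = _ := by group)
    exact Subtype.ext (inv_mul_eq_one.mp h2).symm
  rw [← hN (ρ a v)]
  refine Fintype.prod_bijective f (Finite.injective_iff_bijective.mp hf) _ _ fun y => ?_
  rw [← MulAut.mul_apply, ← map_mul]
  simp [f]

/-- An element acting fixed-point-freely on `K` cannot act quadratically. -/
theorem pow_eq_one_of_quadratic [Finite X] (ρ : X →* MulAut V) (K : Subgroup X) [K.Normal]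
    (hfix : ∀ v : V, (∀ k ∈ K, ρ k v = v) → v = 1) {a : X}
    (ha : ∀ k ∈ K, k * a = a * k → k = 1)
    (hq : ∀ v : V, ρ a (ρ a v * v⁻¹) = ρ a v * v⁻¹) (v : V) : v ^ (2 * Nat.card K) = 1 := by
  have := Fintype.ofFinite K
  have h1 := prod_conj_eq_one ρ K hfix ha v
  have h2 := prod_conj_eq_one ρ K hfix (a := a⁻¹) (fun k hk h => ha k hk (by
    calc k * a = a * (a⁻¹ * k) * a := by group
      _ = a * (k * a⁻¹) * a := by rw [h]
      _ = _ := by group)) v
  have h3 : ∀ w : V, ρ a w * ρ a⁻¹ w = w ^ 2 := by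
    intro w
    have h4 := hq (ρ a⁻¹ w)
    have h5 : ρ a (ρ a⁻¹ w) = w := by rw [← MulAut.mul_apply, ← map_mul]; simp
    rw [h5, map_mul, map_inv, h5] at h4
    rw [sq, ← mul_inv_eq_one]
    calc ρ a w * ρ a⁻¹ w * (w * w)⁻¹ = ρ a w * w⁻¹ * (w * (ρ a⁻¹ w)⁻¹)⁻¹ := by
          simp only [mul_inv, inv_inv]; ac_rfl
      _ = 1 := by rw [h4, mul_inv_cancel]
  have h4 : ∏ y : K, (ρ (y * a * (y : X)⁻¹) v * ρ (y * a⁻¹ * (y : X)⁻¹) v) = ∏ _y : K, v ^ 2 := by
    refine Finset.prod_congr rfl fun y _ => ?_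
    simp only [map_mul, MulAut.mul_apply]
    rw [← map_mul, h3, map_pow, ← MulAut.mul_apply, ← map_mul]; simp
  rw [Finset.prod_mul_distrib, h1, h2, Finset.prod_const, Finset.card_univ,
    ← Nat.card_eq_fintype_card, ← pow_mul] at h4
  simpa using h4.symm

end Quad

section Local

variable {p : ℕ} [hp : Fact p.Prime] {L : Type*} [Group L] [Finite L]

theorem IsolatedPrime.subgroup (h : IsolatedPrime p L) (K : Subgroup L) : IsolatedPrime p K := by
  intro x y hx hy hxy
  rcases h x y (by simpa using hx) (by simpa using hy) (hxy.map K.subtype) with h | h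
  · exact Or.inl (Subtype.ext h)
  · exact Or.inr (Subtype.ext h)

theorem IsolatedPrime.pElt (h : IsolatedPrime p L) {x y : L} (hx : ∃ k : ℕ, orderOf x = p ^ k)
    (hx1 : x ≠ 1) (hxy : Commute x y) : ∃ k : ℕ, orderOf y = p ^ k := by
  rcases h x _ hx (H5.pPart'_pReg y) (H5.commute_pPart' hxy.symm).symm with h | h
  · exact absurd h hx1
  · have := H5.pPart_mul_pPart' (p := p) y
    rw [h, mul_one] at this
    rw [← this]; exact H5.pPart_pElt y

theorem IsolatedPrime.isPGroup_centralizer (h : IsolatedPrime p L) {x : L}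
    (hx : ∃ k : ℕ, orderOf x = p ^ k) (hx1 : x ≠ 1) :
    IsPGroup p (centralizer ({x} : Set L)) := by
  rw [H1.isPGroup_iff_forall_mem]
  intro y hy
  exact H5.pElt_iff.mp (h.pElt hx hx1 (mem_centralizer_singleton_iff.mp hy).symm)

theorem exists_commute_lift {K : Type*} [Group K] [Finite K] (f : L →* K)
    (hf : Function.Surjective f) (hk : IsPGroup p f.ker) {y : L} (hy : ¬ p ∣ orderOf y) {x : K}
    (hx : ∃ k : ℕ, orderOf x = p ^ k) (hxy : Commute x (f y)) :
    ∃ c : L, (∃ k : ℕ, orderOf c = p ^ k) ∧ Commute c y ∧ f c = x := by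
  have h1 := H1.centralizer_map_of_coprime (A := zpowers y) hf
    (H1.coprime_card_of_isPGroup hk (by
      rw [Nat.card_zpowers]; exact ((Nat.Prime.coprime_iff_not_dvd hp.out).mpr hy).symm))
    (Or.inl inferInstance)
  rw [MonoidHom.map_zpowers, H5.centralizer_zpowers, H5.centralizer_zpowers] at h1
  have h2 : x ∈ centralizer ({f y} : Set K) := mem_centralizer_singleton_iff.mpr hxy
  rw [h1] at h2
  obtain ⟨c, hc, rfl⟩ := h2
  refine ⟨H5.pPart p c, H5.pPart_pElt c,
    H5.commute_pPart (mem_centralizer_singleton_iff.mp hc), ?_⟩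
  rw [H5.map_pPart, H5.pPart_of_pElt hx]

theorem IsolatedPrime.quotient (h : IsolatedPrime p L) {K : Type*} [Group K] [Finite K]
    (f : L →* K) (hf : Function.Surjective f) (hk : IsPGroup p f.ker) : IsolatedPrime p K := by
  intro x y hx hy hxy
  obtain ⟨y, hy', rfl⟩ := H3.exists_pReg_lift f hf hy
  obtain ⟨c, hc, hcy, rfl⟩ := exists_commute_lift f hf hk hy' hx hxy
  rcases h c y hc hy' hcy with h | h <;> simp [h]

theorem not_dvd_card_fitting_quotient :
    ¬ p ∣ Nat.card (fittingSubgroup (L ⧸ pCore p L)) := by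
  intro h
  obtain ⟨x, hx⟩ := exists_prime_orderOf_dvd_card' p h
  have h1 : zpowers (x : L ⧸ pCore p L) ≤ pCore p (L ⧸ pCore p L) :=
    H1.le_pCore_of_le_fittingSubgroup (H5.isPGroup_zpowers ⟨1, by simpa using hx⟩)
      (zpowers_le.mpr x.2)
  rw [H1.pCore_quotient_pCore, le_bot_iff, zpowers_eq_bot] at h1
  rw [← orderOf_coe, h1, orderOf_one] at hx
  exact hp.out.one_lt.ne hx

theorem fitting_ne_bot {K : Type*} [Group K] [Finite K] [Group.IsSolvable K] [Nontrivial K] :
    fittingSubgroup K ≠ ⊥ := by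
  intro h
  have := H1.centralizer_fittingSubgroup_le (G := K)
  rw [h] at this
  obtain ⟨x, hx⟩ := exists_ne (1 : K)
  exact hx (mem_bot.mp (this (by simp [mem_centralizer_iff])))

/-- Elements acting quadratically on the centre of `O_p(L)` lie in `O_p(L)`. -/
theorem IsolatedPrime.mem_pCore_of_quadratic [Group.IsSolvable L] (hodd : Odd (Nat.card L))
    (h : IsolatedPrime p L) (hne : pCore p L ≠ ⊥) {a : L} (ha : ∃ k : ℕ, orderOf a = p ^ k)
    (hq : ∀ v ∈ pCore p L ⊓ centralizer (pCore p L : Set L), Commute a (a * v * a⁻¹ * v⁻¹)) :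
    a ∈ pCore p L := by
  by_contra haP
  set P := pCore p L with hP
  set V := P ⊓ centralizer (P : Set L) with hV
  have hVn : V.Normal := inferInstance
  have hPp : IsPGroup p P := H1.pCore_isPGroup p L
  have hVne : V ≠ ⊥ := H1.inf_centralizer_ne_bot_of_isPGroup hPp hPp le_normalizer hne
  letI : CommGroup V := { (inferInstance : Group V) with
    mul_comm := fun x y => Subtype.ext (mem_centralizer_iff.mp y.2.2 x x.2.1) }
  let π := QuotientGroup.mk' P
  have hπ : Function.Surjective π := QuotientGroup.mk'_surjective P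
  have hker : IsPGroup p π.ker := by rw [QuotientGroup.ker_mk']; exact hPp
  let ρ : L ⧸ P →* MulAut V := QuotientGroup.lift P MulAut.conjNormal (by
    intro x hx
    rw [MonoidHom.mem_ker]
    ext v
    have := mem_centralizer_iff.mp v.2.2 x hx
    simp [this])
  have hρ : ∀ (x : L) (v : V), ((ρ (π x) v : V) : L) = x * v * x⁻¹ := fun x v => rfl
  have hiso := h.quotient π hπ hker
  have ha1 : π a ≠ 1 := fun h => haP ((QuotientGroup.eq_one_iff a).mp h)
  have : Nontrivial (L ⧸ P) := ⟨⟨_, _, ha1⟩⟩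
  set F := fittingSubgroup (L ⧸ P) with hF
  have hFp : ¬ p ∣ Nat.card F := not_dvd_card_fitting_quotient
  obtain ⟨v, hv, hv1⟩ := (bot_or_exists_ne_one V).resolve_left hVne
  have h1 := pow_eq_one_of_quadratic ρ F (by
      intro v hv
      obtain ⟨r, hr, hr1⟩ := (bot_or_exists_ne_one F).resolve_left fitting_ne_bot
      obtain ⟨y, hy, rfl⟩ := H3.exists_pReg_lift π hπ (H5.pReg_of_mem hFp hr)
      have h2 := congrArg Subtype.val (hv _ hr)
      rw [hρ] at h2
      rcases h v y (H5.pElt_of_mem hPp v.2.1) hy (by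
        rw [commute_iff_eq, ← mul_inv_eq_iff_eq_mul.mp h2]) with h3 | h3
      · exact Subtype.ext h3
      · exact absurd (by rw [h3, map_one]) hr1) (a := π a) (by
      intro k hk hka
      rcases hiso (π a) k (H5.pElt_map π ha) (H5.pReg_of_mem hFp hk) hka.symm with h3 | h3
      · exact absurd h3 ha1
      · exact h3) (by
      intro v
      apply Subtype.ext
      rw [hρ, coe_mul, coe_inv, hρ, (hq v v.2).eq]
      simp) ⟨v, hv⟩
  obtain ⟨k, hk⟩ := H5.pElt_of_mem hPp hv.1
  have h2 : orderOf v ∣ 2 * Nat.card F :=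
    orderOf_dvd_of_pow_eq_one (congrArg Subtype.val h1)
  have hk0 : k ≠ 0 := by
    rintro rfl
    exact hv1 (orderOf_eq_one_iff.mp (by simpa using hk))
  have h3 : p ∣ orderOf v := hk ▸ dvd_pow_self p hk0
  rcases (Nat.Prime.dvd_mul hp.out).mp (h3.trans h2) with h4 | h4
  · have h5 := (Nat.prime_dvd_prime_iff_eq hp.out Nat.prime_two).mp h4
    have h6 := hodd.of_dvd_nat (h3.trans (orderOf_dvd_natCard v))
    rw [h5] at h6
    exact absurd h6 (by decide)
  · exact hFp h4

theorem IsolatedPrime.isCyclic_sylow (hodd : Odd (Nat.card L)) (h : IsolatedPrime p L)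
    (hne : pCore p L ≠ ⊥) {q : ℕ} [hq : Fact q.Prime] (hqp : q ≠ p) (Q : Subgroup L)
    (hQ : IsPGroup q Q) : IsCyclic Q := by
  have hPp : IsPGroup p (pCore p L) := H1.pCore_isPGroup p L
  rcases H2.sylow_isCyclic_or_quaternion_of_fpf (K := pCore p L) (H := Q) hne
    (by rw [normalizer_eq_top]; exact le_top) (by
      intro y hy hy1
      rw [eq_bot_iff]
      intro x hx
      obtain ⟨k, hk⟩ := H5.pElt_of_mem hQ hy
      rcases h x y (H5.pElt_of_mem hPp hx.1) (by
        rw [hk]
        exact fun h => hqp ((Nat.prime_dvd_prime_iff_eq hp.out hq.out).mp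
          (hp.out.dvd_of_dvd_pow h)).symm) (mem_centralizer_singleton_iff.mp hx.2) with h | h
      · exact h
      · exact absurd h hy1) q ⊤ (hQ.to_subgroup ⊤) with h1 | ⟨-, n, -, ⟨e⟩⟩
  · exact isCyclic_of_surjective _ topEquiv.surjective
  · exfalso
    have h1 : Nat.card (⊤ : Subgroup Q) = 4 * 2 ^ n := by
      have : NeZero (2 ^ n) := ⟨by positivity⟩
      rw [Nat.card_congr e.toEquiv, Nat.card_eq_fintype_card, QuaternionGroup.card]
    have h2 := hodd.of_dvd_nat Q.card_subgroup_dvd_card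
    rw [card_top] at h1
    rw [h1] at h2
    exact absurd (h2.of_dvd_nat (Dvd.intro (2 * 2 ^ n) (by ring) : 2 ∣ _)) (by decide)

theorem IsolatedPrime.not_mem_pResidual [Group.IsSolvable L] (hodd : Odd (Nat.card L))
    (h : IsolatedPrime p L) (hne : pCore p L ≠ ⊥) {a : L} (ha : ∃ k : ℕ, orderOf a = p ^ k)
    (haP : a ∉ pCore p L) : a ∉ pResidual p L ⊔ commutator L := by
  set P := pCore p L with hP
  have hPp : IsPGroup p P := H1.pCore_isPGroup p L
  let π := QuotientGroup.mk' P
  have hπ : Function.Surjective π := QuotientGroup.mk'_surjective P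
  have hker : IsPGroup p π.ker := by rw [QuotientGroup.ker_mk']; exact hPp
  have hiso := h.quotient π hπ hker
  have ha1 : π a ≠ 1 := fun h => haP ((QuotientGroup.eq_one_iff a).mp h)
  have : Nontrivial (L ⧸ P) := ⟨⟨_, _, ha1⟩⟩
  set F := fittingSubgroup (L ⧸ P) with hF
  have hFp : ¬ p ∣ Nat.card F := not_dvd_card_fitting_quotient
  have : IsZGroup F := ⟨fun q hq Q => by
    have : Fact q.Prime := ⟨hq⟩
    by_cases hqp : q = p
    · subst hqp
      obtain ⟨k, hk⟩ := IsPGroup.iff_card.mp Q.isPGroup'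
      have hk0 : k = 0 := by
        by_contra hk0
        exact hFp ((hk ▸ dvd_pow_self q hk0).trans (card_subgroup_dvd_card _))
      rw [hk0, pow_zero, Nat.card_eq_one_iff_unique] at hk
      have := hk.1
      infer_instance
    · obtain ⟨Q₁, hQ₁⟩ := (Q.isPGroup'.map F.subtype).exists_le_sylow
      obtain ⟨Q₂, rfl⟩ := Sylow.mapSurjective_surjective hπ q Q₁
      have h1 := h.isCyclic_sylow hodd hne hqp Q₂ Q₂.isPGroup'
      have h2 : IsCyclic (Q₂.mapSurjective hπ) :=
        isCyclic_of_surjective _ (π.subgroupMap_surjective Q₂)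
      have h3 := isCyclic_of_le hQ₁
      exact isCyclic_of_surjective _
        (equivMapOfInjective (Q : Subgroup F) F.subtype F.subtype_injective).symm.surjective⟩
  have hcyc : IsCyclic F := inferInstance
  let ψ : L →* (ZMod (Nat.card F))ˣ :=
    ((IsCyclic.mulAutMulEquiv F).toMonoidHom.comp MulAut.conjNormal).comp π
  obtain ⟨k, hk⟩ := H5.pElt_iff.mp ha
  refine H6.not_mem_pResidual_of_hom ψ (k := k) ?_ (by rw [← map_pow, hk, map_one])
  intro h1
  have h2 : MulAut.conjNormal (H := F) (π a) = 1 := by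
    apply (IsCyclic.mulAutMulEquiv F).injective
    rw [map_one]; exact h1
  obtain ⟨r, hr, hr1⟩ := (bot_or_exists_ne_one F).resolve_left fitting_ne_bot
  have h3 := congrArg (fun φ : MulAut F => ((φ ⟨r, hr⟩ : F) : L ⧸ P)) h2
  simp only [MulAut.conjNormal_apply, MulAut.one_apply] at h3
  rcases hiso (π a) r (H5.pElt_map π ha) (H5.pReg_of_mem hFp hr)
    (mul_inv_eq_iff_eq_mul.mp h3) with h4 | h4
  · exact ha1 h4
  · exact hr1 h4

end Local

section Global

variable {p : ℕ} [hp : Fact p.Prime] {G : Type*} [Group G] [Finite G]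

theorem pCore_map_isPGroup (L : Subgroup G) : IsPGroup p ((pCore p L).map L.subtype) :=
  (H1.pCore_isPGroup p L).map _

theorem le_normalizer_pCore_map (L : Subgroup G) :
    L ≤ normalizer (((pCore p L).map L.subtype : Subgroup G) : Set G) :=
  le_normalizer.trans (H1.normalizer_le_normalizer_map_characteristic _)

theorem le_pCore_map {L D : Subgroup G} (hD : IsPGroup p D) (hDL : D ≤ L)
    (hL : L ≤ normalizer (D : Set G)) : D ≤ (pCore p L).map L.subtype := by
  have h1 : D.subgroupOf L ≤ pCore p L :=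
    H1.le_pCore (normal_subgroupOf_of_le_normalizer hL)
      (hD.of_equiv (subgroupOfEquivOfLe hDL).symm)
  intro x hx
  exact ⟨⟨x, hDL hx⟩, h1 hx, rfl⟩

theorem IsolatedPrime.le_normalizer_thompson (hodd : Odd (Nat.card G)) (h : IsolatedPrime p G)
    {L T : Subgroup G} [Group.IsSolvable L] (hne : pCore p L ≠ ⊥) (hT : H1.IsSylowIn p T L) :
    L ≤ normalizer (thompsonSubgroupAOf T : Set G) := by
  set P := (pCore p L).map L.subtype with hP
  have hPp : IsPGroup p P := pCore_map_isPGroup L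
  have hLP : L ≤ normalizer (P : Set G) := le_normalizer_pCore_map L
  have hPL : P ≤ L := map_subtype_le _
  have hPT : P ≤ T := hT.le_of_le_normalizer hPp hPL (hT.le.trans hLP)
  have hJ : thompsonSubgroupAOf T ≤ P := by
    by_contra hJ
    obtain ⟨A, hA, hAP, hBA⟩ := H1.exists_maxAb_not_le_normalized hT.isPGroup
      (B := P ⊓ centralizer (P : Set G)) (inf_le_left.trans hPT)
      (H1.le_normalizer_inf (hT.le.trans hLP) (H1.le_normalizer_centralizer (hT.le.trans hLP)))
      (fun x hx y hy => mem_centralizer_iff.mp hy.2 x hx.1) inf_le_right hJ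
    apply hAP
    intro a ha
    have haL : a ∈ L := hT.le (hA.le ha)
    refine ⟨⟨a, haL⟩, (h.subgroup L).mem_pCore_of_quadratic
      (hodd.of_dvd_nat L.card_subgroup_dvd_card) hne ?_ ?_, rfl⟩
    · simpa using H5.pElt_of_mem hT.isPGroup (hA.le ha)
    · intro v hv
      have hv' : (v : G) ∈ P ⊓ centralizer (P : Set G) := by
        refine ⟨⟨v, hv.1, rfl⟩, ?_⟩
        rintro _ ⟨w, hw, rfl⟩
        exact congrArg Subtype.val (mem_centralizer_iff.mp hv.2 w hw)
      have h1 := H1.commutator_mem_of_le_normalizer' hBA hv' ha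
      exact Subtype.ext (hA.isAb a ha _ h1)
  rw [← H1.thompson_eq_of_le hJ hPT]
  exact hLP.trans (H1.normalizer_le_normalizer_thompson P)

theorem thompson_ne_bot {T : Subgroup G} (hT : IsPGroup p T) (hne : T ≠ ⊥) :
    thompsonSubgroupAOf T ≠ ⊥ := by
  intro h
  apply H1.inf_centralizer_ne_bot_of_isPGroup hT hT le_normalizer hne
  rw [eq_bot_iff, ← h]
  exact H1.centralizerIn_le_thompson T

theorem normalizer_thompson_eq {S S₁ : Subgroup G} (hS : H1.IsSylowIn p S ⊤)
    (hS₁ : H1.IsSylowIn p S₁ (normalizer (thompsonSubgroupAOf S : Set G))) :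
    normalizer (thompsonSubgroupAOf S₁ : Set G) = normalizer (thompsonSubgroupAOf S : Set G) := by
  have hS' := hS.mono (le_normalizer.trans (H1.normalizer_le_normalizer_thompson S)) le_top
  obtain ⟨n, hn, rfl⟩ := hS'.exists_conj hS₁
  rw [← H1.conj_smul_thompson, H2.conj_smul_eq_iff_mem_normalizer.mpr hn]

variable (hodd : Odd (Nat.card G)) (h : IsolatedPrime p G)
  (hsolv : ∀ D : Subgroup G, D ≠ ⊥ → IsPGroup p D → Group.IsSolvable (normalizer (D : Set G)))
include hodd h hsolv

theorem IsolatedPrime.normalizer_le {S : Subgroup G} (hS : H1.IsSylowIn p S ⊤) (n : ℕ) :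
    ∀ D T : Subgroup G, D ≠ ⊥ → IsPGroup p D → D ≤ normalizer (thompsonSubgroupAOf S : Set G) →
      H1.IsSylowIn p T (normalizer (thompsonSubgroupAOf S : Set G) ⊓ normalizer (D : Set G)) →
      Nat.card G - Nat.card T = n →
      normalizer (D : Set G) ≤ normalizer (thompsonSubgroupAOf S : Set G) := by
  induction n using Nat.strong_induction_on with
  | _ n ih =>
    intro D T hD hDp hDN hT hn
    set N := normalizer (thompsonSubgroupAOf S : Set G) with hN
    have := hsolv D hD hDp
    have hDT : D ≤ T := hT.le_of_le_normalizer hDp (le_inf hDN le_normalizer)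
      (hT.le.trans inf_le_right)
    have hTne : T ≠ ⊥ := fun h => hD (le_bot_iff.mp (h ▸ hDT))
    have hcore : pCore p (normalizer (D : Set G)) ≠ ⊥ := by
      intro h
      have := le_pCore_map hDp le_normalizer le_rfl
      rw [h, Subgroup.map_bot] at this
      exact hD (le_bot_iff.mp this)
    obtain ⟨S₁, hS₁, hTS₁⟩ := H1.exists_isSylowIn_ge hT.isPGroup (hT.le.trans inf_le_left)
    have hS' := hS.mono (le_normalizer.trans (H1.normalizer_le_normalizer_thompson S)) le_top
    by_cases hTS : T = S₁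
    · have h1 : H1.IsSylowIn p T ⊤ := hS.of_card_le hT.isPGroup le_top
        (by rw [hTS, hS'.card_eq_card hS₁])
      have h2 := h.le_normalizer_thompson hodd hcore
        (h1.mono (hT.le.trans inf_le_right) le_top)
      rwa [hTS, normalizer_thompson_eq hS hS₁] at h2
    · have hlt := H1.lt_inf_normalizer_of_isPGroup hS₁.isPGroup (lt_of_le_of_ne hTS₁ hTS)
      have key : ∀ E : Subgroup G, E ≠ ⊥ → E ≤ T →
          normalizer (T : Set G) ≤ normalizer (E : Set G) → normalizer (E : Set G) ≤ N := by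
        intro E hE hET hTE
        obtain ⟨T', hT'⟩ := H1.exists_isSylowIn p (N ⊓ normalizer (E : Set G))
        refine ih _ ?_ E T' hE (hT.isPGroup.to_le hET) (hET.trans (hT.le.trans inf_le_left)) hT' rfl
        have h1 := hT'.card_le (hS₁.isPGroup.to_inf_left (K := normalizer (T : Set G)))
          (inf_le_inf hS₁.le hTE)
        have h2 := H1.card_lt_of_lt hlt
        have h3 := card_le_card_group T'
        omega
      have h1 : H1.IsSylowIn p T (normalizer (D : Set G)) := by
        refine H1.isSylowIn_of_isSylowIn_normalizer (hT.mono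
          (le_inf (hT.le.trans inf_le_right) le_normalizer) ?_)
        exact le_inf (inf_le_right.trans (key T hTne le_rfl le_rfl)) inf_le_left
      exact (h.le_normalizer_thompson hodd hcore h1).trans
        (key _ (thompson_ne_bot hT.isPGroup hTne) (H1.thompson_le T)
          (H1.normalizer_le_normalizer_thompson T))

theorem IsolatedPrime.le_of_inf_ne_bot {S Q : Subgroup G} (hS : H1.IsSylowIn p S ⊤)
    (hQ : IsPGroup p Q) (hne : Q ⊓ normalizer (thompsonSubgroupAOf S : Set G) ≠ ⊥) :
    Q ≤ normalizer (thompsonSubgroupAOf S : Set G) := by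
  set N := normalizer (thompsonSubgroupAOf S : Set G) with hN
  by_contra hcon
  have hlt : Q ⊓ N < Q := lt_of_le_of_ne inf_le_left fun h => hcon (h ▸ inf_le_right)
  have h1 := H1.lt_inf_normalizer_of_isPGroup hQ hlt
  obtain ⟨T, hT⟩ := H1.exists_isSylowIn p (N ⊓ normalizer ((Q ⊓ N : Subgroup G) : Set G))
  have h2 := h.normalizer_le hodd hsolv hS _ (Q ⊓ N) T hne hQ.to_inf_left inf_le_right hT rfl
  exact h1.not_ge (le_inf inf_le_left (inf_le_right.trans h2))

/-- In a perfect group of odd order with solvable `p`-local subgroups in which `p` is isolated, a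
Sylow `p`-subgroup contains the centralizers of its non-identity elements. -/
theorem IsolatedPrime.centralizer_le_sylow (hperf : commutator G = ⊤) {S : Subgroup G}
    (hS : H1.IsSylowIn p S ⊤) {x : G} (hx : x ∈ S) (hx1 : x ≠ 1) :
    centralizer ({x} : Set G) ≤ S := by
  set N := normalizer (thompsonSubgroupAOf S : Set G) with hN
  have hSN : S ≤ N := le_normalizer.trans (H1.normalizer_le_normalizer_thompson S)
  have hS' := hS.mono hSN le_top
  have hSne : S ≠ ⊥ := fun h => hx1 (mem_bot.mp (h ▸ hx))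
  have hJne := thompson_ne_bot hS.isPGroup hSne
  have hJp : IsPGroup p (thompsonSubgroupAOf S) := hS.isPGroup.to_le (H1.thompson_le S)
  have := hsolv _ hJne hJp
  have hcore : pCore p N ≠ ⊥ := by
    intro h
    have := le_pCore_map hJp le_normalizer le_rfl
    rw [h, Subgroup.map_bot] at this
    exact hJne (le_bot_iff.mp this)
  have hctrl := H6.control_transfer (p := p) N (by
    rw [Nat.Prime.coprime_iff_not_dvd hp.out, ← relIndex_top_right]
    exact hS.not_dvd_relIndex_of_le hSN) (by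
    intro g hg hgp a ha
    by_cases hg1 : g = 1
    · exact ⟨1, N.one_mem, by simp [hg1]⟩
    refine ⟨a, ?_, rfl⟩
    obtain ⟨S₁, hS₁, hgS⟩ := H1.exists_isSylowIn_ge (H5.isPGroup_zpowers (H5.pElt_iff.mpr hgp))
      (zpowers_le.mpr hg)
    have hS₂ : MulAut.conj a • S₁ ≤ N := by
      refine h.le_of_inf_ne_bot hodd hsolv hS (hS₁.conj_smul a).isPGroup ?_
      rw [ne_bot_iff_exists_ne_one]
      refine ⟨⟨a * g * a⁻¹, ?_, ha⟩, fun h => hg1 ?_⟩
      · exact smul_mem_pointwise_smul _ _ _ (hgS (mem_zpowers g))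
      · simpa using congrArg Subtype.val h
    have hS₃ := hS₁.of_card_le (hS₁.conj_smul a).isPGroup hS₂ (by rw [H1.card_smul])
    obtain ⟨n, hn, hn'⟩ := hS₃.exists_conj hS₁
    rw [← mul_smul, ← map_mul, H2.conj_smul_eq_iff_mem_normalizer] at hn'
    have h2 := H1.normalizer_le_normalizer_thompson S₁ hn'
    rw [normalizer_thompson_eq hS hS₁] at h2
    exact (N.mul_mem_cancel_left hn).mp h2)
  rw [hperf, sup_top_eq, top_inf_eq] at hctrl
  have hall : ∀ g ∈ N, (∃ k : ℕ, orderOf g = p ^ k) → g ∈ (pCore p N).map N.subtype := by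
    intro g hg hgp
    refine ⟨⟨g, hg⟩, ?_, rfl⟩
    by_contra hcon
    apply (h.subgroup N).not_mem_pResidual (hodd.of_dvd_nat N.card_subgroup_dvd_card) hcore
      (by simpa using hgp) hcon
    obtain ⟨y, hy, hyg⟩ := hctrl.le hg
    rwa [show y = ⟨g, hg⟩ from Subtype.ext hyg] at hy
  have hPS : (pCore p N).map N.subtype ≤ S :=
    hS'.le_of_le_normalizer (pCore_map_isPGroup N) (map_subtype_le _)
      (hSN.trans (le_normalizer_pCore_map N))
  have hCp := h.isPGroup_centralizer (H5.pElt_of_mem hS.isPGroup hx) hx1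
  have hCN := h.le_of_inf_ne_bot hodd hsolv hS hCp (by
    rw [ne_bot_iff_exists_ne_one]
    exact ⟨⟨x, mem_centralizer_singleton_iff.mpr rfl, hSN hx⟩,
      fun h => hx1 (congrArg Subtype.val h)⟩)
  exact fun y hy => hPS (hall y (hCN hy) (H5.pElt_of_mem hCp hy))

end Global

end Cfsg.Agent.H4
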